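import Cfsg.Agent.S0370
import Cfsg.Agent.S0372
import Cfsg.Agent.S0373
import Cfsg.Prelude.Def_JankoFourType

/-! An automorphism of `M22` acting as a reflection on a Sylow 3-subgroup. -/

set_option autoImplicit false
set_option maxRecDepth 100000
open Subgroup Cfsg Cfsg.Spor

namespace H4.F22

def tb (l : List (ZMod 23)) : GolayPt → GolayPt
  | none => none
  | some x => some (l.getD x.val 0)

def de : Equiv.Perm GolayPt where
  toFun := tb [0, 18, 6, 3, 2, 21, 1, 5, 16, 12, 7, 19, 8, 9, 17, 15, 13, 11, 4, 22, 10, 20, 14]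
  invFun := tb [0, 6, 4, 3, 18, 7, 2, 10, 12, 13, 20, 17, 9, 16, 22, 15, 8, 14, 1, 11, 21, 5, 19]
  left_inv := by decide +kernel
  right_inv := by decide +kernel

def al : Equiv.Perm GolayPt := Equiv.optionCongr (Equiv.addRight (1 : ZMod 23))

def wd (w : List ℕ) : Equiv.Perm GolayPt := (w.map fun i => [al, al⁻¹, projInv, de, de⁻¹].getD i 1).prod

theorem wd_mem (w : List ℕ) : wd w ∈ M24 := by
  have h1 : al ∈ M24 := Cfsg.Agent.S0370.result
  have h2 : de ∈ M24 := by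
    have : ∀ x, de x = cubeTwistFun x := by decide +kernel
    rw [show de = cubeTwist from Equiv.ext this]
    exact Cfsg.Agent.S0373.result
  refine list_prod_mem fun x hx => ?_
  obtain ⟨i, -, rfl⟩ := List.mem_map.1 hx
  rcases i with _ | _ | _ | _ | _ | i
  exacts [h1, inv_mem h1, Cfsg.Agent.S0372.result, h2, inv_mem h2, one_mem _]

def pa := wd [0, 0, 4, 4, 0, 3, 3, 1, 4, 1, 4, 4, 0, 0, 3, 1]
def pb := wd [4, 1, 4, 0, 4, 4, 1, 1, 3, 0, 3, 1, 4, 1, 3]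
def ps := wd [1, 1, 3, 3, 1, 3, 1, 1, 3, 1, 1, 4, 4, 0, 0, 2, 4]

theorem chk : (pa none = none ∧ pa (some 0) = some 0 ∧ pb none = none ∧ pb (some 0) = some 0 ∧
    ps none = some 0 ∧ ps (some 0) = none) ∧ (∀ x, pa (pa (pa x)) = x ∧ pb (pb (pb x)) = x ∧
    pa (pb x) = pb (pa x) ∧ ps (pa x) = pa (ps x) ∧ pb (ps (pb x)) = ps x) ∧ (∃ x, pa x ≠ x) ∧
    (∃ x, pb x ≠ x) ∧ (∃ x, pb x ≠ pa x) ∧ ∃ x, pb x ≠ pa (pa x) := by decide +kernel

theorem f22 : ∃ (a b : ↥M22) (σ : MulAut ↥M22), a ^ 3 = 1 ∧ b ^ 3 = 1 ∧ a * b = b * a ∧ a ≠ 1 ∧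
    b ∉ zpowers a ∧ σ a = a ∧ σ b = b⁻¹ := by
  obtain ⟨⟨a1, a2, b1, b2, s1, s2⟩, r, ⟨x1, n1⟩, ⟨x2, n2⟩, ⟨x3, n3⟩, x4, n4⟩ := chk
  have hs : ps ∈ normalizer (M22 : Set (Equiv.Perm GolayPt)) := mem_normalizer_fintype fun x hx => by
    refine ⟨⟨M24.mul_mem (M24.mul_mem (wd_mem _) hx.1.1) (M24.inv_mem (wd_mem _)), ?_⟩, ?_⟩
    · show ps (x (ps⁻¹ none)) = none
      rw [show ps⁻¹ none = some 0 from Equiv.Perm.inv_eq_iff_eq.2 s2.symm, show x (some 0) = some 0 from hx.2, s2]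
    · show ps (x (ps⁻¹ (some 0))) = some 0
      rw [show ps⁻¹ (some 0) = none from Equiv.Perm.inv_eq_iff_eq.2 s1.symm, show x none = none from hx.1.2, s1]
  let a : M22 := ⟨pa, ⟨wd_mem _, a1⟩, a2⟩
  let b : M22 := ⟨pb, ⟨wd_mem _, b1⟩, b2⟩
  have a3 : a * (a * a) = 1 := Subtype.ext (Equiv.ext fun x => (r x).1)
  have b3 : b * (b * b) = 1 := Subtype.ext (Equiv.ext fun x => (r x).2.1)
  have a3' : a ^ 3 = 1 := by rw [← a3, pow_three]
  have an : a ≠ 1 := fun e => n1 (congrArg (fun g : M22 => g.1 x1) e)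
  refine ⟨a, b, M22.normalizerMonoidHom ⟨ps, hs⟩, a3', by rw [← b3, pow_three],
    Subtype.ext (Equiv.ext fun x => (r x).2.2.1), an, fun h => ?_, Subtype.ext ?_, Subtype.ext ?_⟩
  · rw [mem_zpowers_iff_mem_range_orderOf, orderOf_eq_prime a3' an, Finset.mem_image] at h
    obtain ⟨k, hk, e⟩ := h
    have hk := Finset.mem_range.1 hk
    interval_cases k
    · exact n2 (congrArg (fun g : M22 => g.1 x2) (e.symm.trans (pow_zero a)))
    · exact n3 (congrArg (fun g : M22 => g.1 x3) (e.symm.trans (pow_one a)))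
    · exact n4 (congrArg (fun g : M22 => g.1 x4) (e.symm.trans (sq a)))
  · exact mul_inv_eq_iff_eq_mul.2 (Equiv.ext fun x => (r x).2.2.2.1)
  · show ps * pb * ps⁻¹ = pb⁻¹
    rw [mul_inv_eq_iff_eq_mul, eq_inv_mul_iff_mul_eq]
    exact Equiv.ext fun x => (r x).2.2.2.2

end H4.F22
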