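import Cfsg.Agent.H26.Rv1

/-! Real vectors for k(GV): the induction step. -/

set_option autoImplicit false
set_option linter.unusedSectionVars false

open Cfsg H17 H19 H26Rv Subgroup

namespace H4.Ind

universe u
variable {p : ℕ} [Fact p.Prime] {H : Type u} [Group H] [Finite H] {O : ValuationSubring ℂ}

theorem split {U : Type u} [AddCommGroup U] [Module (ZMod p) U] {ρ : Representation (ZMod p) H U}
    {A B : Submodule (ZMod p) U} (hA : St ρ A) (hB : St ρ B) (c : IsCompl A B)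
    (a : ∃ ψ, Ok p O (fx (ρ.subrepresentation A hA) ⊤) (Nat.card A) ψ)
    (b : ∃ ψ, Ok p O (fx (ρ.subrepresentation B hB) ⊤) (Nat.card B) ψ) :
    ∃ ψ, Ok p O (fx ρ ⊤) (Nat.card U) ψ := by
  obtain ⟨ψ, a⟩ := a
  obtain ⟨ψ', b⟩ := b
  let e := (Submodule.prodEquivOfIsCompl A B c).toEquiv
  have he : ∀ x : A × B, e x = x.1 + x.2 := fun x => Submodule.coe_prodEquivOfIsCompl' A B c x
  have h1 : Nat.card U = Nat.card A * Nat.card B := by rw [← Nat.card_prod, Nat.card_congr e]
  have h2 : fx ρ ⊤ = fun h => fx (ρ.subrepresentation A hA) ⊤ h * fx (ρ.subrepresentation B hB) ⊤ h := by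
    funext h
    rw [fx, fx, fx, ← Nat.card_prod, ← Nat.card_congr Equiv.subtypeProdEquivProd]
    refine (Nat.card_congr (e.subtypeEquiv fun x => ?_)).symm
    have : ρ h (e x) = e (ρ.subrepresentation A hA h x.1, ρ.subrepresentation B hB h x.2) := by
      rw [he, he, map_add]; rfl
    rw [this, e.apply_eq_iff_eq, Prod.ext_iff]
    simp
  rw [h1, h2]
  exact ⟨_, a.mul b⟩

theorem ind (g : GaussP p H O) (w : WeilP p H O) (t : TwoP p H) (d : DecP p H) : IndP p H O := by
  intro U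
  induction hn : Nat.card U using Nat.strong_induction_on generalizing U with
  | _ n ih =>
  intro _ _ _ ρ β hβ hnd
  subst hn
  have sub : ∀ (A : Submodule (ZMod p) U) (hA : St ρ A), A ≠ ⊤ →
      (∀ x ∈ A, (∀ y ∈ A, β x y = 0) → x = 0) →
      ∃ ψ, Ok p O (fx (ρ.subrepresentation A hA) ⊤) (Nat.card A) ψ := fun A hA h1 h2 => by
    refine ih _ ?_ A rfl _ (β.compl₁₂ A.subtype A.subtype) (fun h x y => hβ h x y)
      fun x hx => Subtype.ext (h2 x x.2 fun y hy => hx ⟨y, hy⟩)
    obtain ⟨x, hx⟩ : ∃ x, x ∉ A := by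
      by_contra! k
      exact h1 (Submodule.eq_top_iff'.2 k)
    exact Finite.card_subtype_lt hx
  have dec : ∀ M : Submodule (ZMod p) U, St ρ M → M ≠ ⊥ → M ≠ ⊤ →
      (∀ x ∈ M, ∀ y, β x y + β y x = 0) → ∃ ψ, Ok p O (fx ρ ⊤) (Nat.card U) ψ := fun M a b c e => by
    obtain ⟨A, B, hA, hB, k, h1, h2, h3⟩ := d U ρ β hβ hnd M a b c e
    refine split hA hB k ?_ (sub B hB h1 h2)
    rcases h3 with ⟨h3, h4⟩ | ⟨γ, h3, h4⟩
    · exact sub A hA h3 h4
    · exact g A _ (γ.compl₁₂ A.subtype A.subtype) (fun h x y => h3 h x y)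
        fun x hx => Subtype.ext (h4 x x.2 fun y hy => hx ⟨y, hy⟩)
  let R := LinearMap.ker (β + β.flip)
  have hR : ∀ x, x ∈ R ↔ ∀ y, β x y + β y x = 0 := fun x => by
    rw [LinearMap.mem_ker, LinearMap.ext_iff]; rfl
  by_cases h0 : R = ⊥
  · exact g U ρ β hβ fun x hx => (Submodule.mem_bot _).1 (h0 ▸ (hR x).2 hx)
  by_cases h1 : R = ⊤
  swap
  · refine dec R (fun h x hx => (hR _).2 fun y => ?_) h0 h1 fun x hx => (hR x).1 hx
    have := (hR x).1 hx (ρ h⁻¹ y)
    rwa [← hβ h x, ← hβ h _ x, ρ.self_inv_apply] at this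
  have sk : ∀ x y, β x y + β y x = 0 := fun x => (hR x).1 (h1 ▸ Submodule.mem_top)
  by_cases h2 : p = 2
  swap
  · refine w h2 U ρ β hβ (fun x => ?_) hnd
    have := sk x x
    rw [← two_mul, mul_eq_zero] at this
    refine this.resolve_left fun k => h2 ?_
    exact (Nat.prime_dvd_prime_iff_eq Fact.out Nat.prime_two).1
      ((ZMod.natCast_eq_zero_iff 2 p).1 (by exact_mod_cast k))
  let K : Submodule (ZMod p) U :=
    { carrier := {x | β x x = 0}
      add_mem' := fun {x y} (hx : β x x = 0) (hy : β y y = 0) => by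
        show β (x + y) (x + y) = 0
        simp only [map_add, LinearMap.add_apply]
        linear_combination hx + hy + sk x y
      zero_mem' := by simp
      smul_mem' := fun c x (hx : β x x = 0) => by
        show β (c • x) (c • x) = 0
        simp [hx] }
  by_cases h3 : K = ⊤
  · obtain ⟨γ, a, b⟩ := t h2 U ρ β hβ fun x => (h3.ge Submodule.mem_top : x ∈ K)
    exact g U ρ γ a fun x hx => hnd x fun y => (b x y).symm.trans (hx y)
  by_cases h4 : K = ⊥
  swap
  · exact dec K (fun h x hx => (hβ h x x).trans hx) h4 h3 fun x _ => sk x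
  have h5 : ∀ h x, ρ h x = x := fun h x => by
    refine sub_eq_zero.1 ((Submodule.mem_bot _).1 (h4.le (?_ : β _ _ = 0)))
    simp only [map_sub, LinearMap.sub_apply, hβ h x x]
    linear_combination sk x x - sk x (ρ h x)
  have h6 : ∀ h, fx ρ ⊤ h = Nat.card U := fun h =>
    Nat.card_congr (Equiv.subtypeUnivEquiv fun x => ⟨trivial, h5 h x⟩)
  exact ⟨fun _ => 1, fun σ h => by simp [h6], rfl, fun _ => isIntegral_one, fun h k => (k (h6 h)).elim,
    0, by simpa using const_mem (H := H) isIntegral_one⟩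

end H4.Ind
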