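import Cfsg.Agent.H16.LA27
import Cfsg.Agent.H13.XQ
/-! The group `Ω⁺(8, 2)` on a sum of two elliptic four-spaces. -/
set_option autoImplicit false
namespace H4.Hc
noncomputable section
open H13 H22 H23 H23.Form Module Equiv
section
variable {V : Type*} [AddCommGroup V] [Module (ZMod 2) V] {q : V → ZMod 2} (h : QF q)
include h
theorem pol_sm (c : ZMod 2) (u v : V) : pol q (c • u) v = c * pol q u v := by
  rcases z2_cases c with rfl | rfl <;> simp [h.zero]
theorem pol_sm' (c : ZMod 2) (u v : V) : pol q u (c • v) = c * pol q u v := by rw [pol_comm, pol_sm h, pol_comm]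
theorem q_sm (c : ZMod 2) (u : V) : q (c • u) = c * q u := by rcases z2_cases c with rfl | rfl <;> simp [h.q0]
def frm : Form (RingHom.id (ZMod 2)) V where
  ε := 1
  κ := 1
  B := LinearMap.mk₂ (ZMod 2) (pol q) h.add (pol_sm h) h.add' (pol_sm' h)
  Q := q
  invol _ := rfl
  eps := by simp
  symm x y := by simp [pol_comm]
  kσ _ := rfl
  kε := by simp
  Q_add x y := by simp [q_add]
  Q_smul c x := by rw [q_sm h]; rcases z2_cases c with rfl | rfl <;> simp
  trace v := ⟨q v, by simp [h.self, z2_two], by simp⟩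
theorem frm_refl {a : V} (ha : q a = 1) (v : V) : (refl (Φ := frm h) rfl a).1 v = v + pol q a v • a := by
  refine (H22.refl_apply (Φ := frm h) rfl a v).trans ?_
  rw [sub_eq_add_neg, h.neg]; simp [frm, ha]
theorem big [Finite V] (hV : finrank (ZMod 2) V = 8) {K : Type*} [Group K] (π : K →* AL V) (hq : ∀ k v, q (π k v) = q v)
    (hc : Nat.card π.range = 174182400) : ∃ s : (frm h).O →* ℤˣ, (∀ a, q a = 1 → s (refl rfl a) = -1) ∧
      ∀ g, s g = 1 ↔ ∃ k, ∀ v, π k v = g.1 v := by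
  have nd : (frm h).Nondeg := h.nd
  have hg := genHyp_of nd rfl (.inr (by omega))
  have : Nontrivial V := Module.nontrivial_of_finrank_pos (R := ZMod 2) (by omega)
  have sq : ∀ a : ZMod 2, IsSquare a := by decide
  let j : π.range →* (frm h).O :=
    { toFun := fun g => ⟨{ g.1.toAddEquiv with map_smul' := ZMod.map_smul g.1 }, by
        obtain ⟨_, k, rfl⟩ := g
        exact ⟨fun x y => by change pol q (π k x) (π k y) = pol q x y; rw [pol, ← map_add, hq, hq, hq]; rfl, hq k⟩⟩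
      map_one' := rfl
      map_mul' := fun _ _ => rfl }
  have ji : Function.Injective j := fun a b e => Subtype.ext (LinearEquiv.ext fun v => congrArg (fun g : (frm h).O => g.1 v) e)
  have jc : Nat.card j.range = 174182400 := by rw [← hc]; exact (Nat.card_congr (MonoidHom.ofInjective ji).toEquiv).symm
  have cO : Nat.card (frm h).O = 348364800 := by
    by_cases p : H14.Wall.IsPlus (frm h) (3 + 1)
    · rw [p.card_O]; decide +kernel
    · have := j.range.card_subgroup_dvd_card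
      rw [jc, H16.card_O_minus nd rfl (m := 3) hV p] at this
      exact absurd this (by decide +kernel)
  have : Finite (frm h).O := Nat.finite_of_card_ne_zero (by omega)
  have i1 : j.range.index = 2 := by have := j.range.card_mul_index; rw [jc, cO] at this; omega
  have e : commutator (frm h).O = j.range := by
    refine Subgroup.eq_of_le_of_card_ge (Subgroup.commutator_le.2 fun a _ b _ => ?_) ?_
    · rw [commutatorElement_def, Subgroup.mul_mem_iff_of_index_two i1, Subgroup.mul_mem_iff_of_index_two i1,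
        Subgroup.mul_mem_iff_of_index_two i1, inv_mem_iff, inv_mem_iff]; tauto
    · have := (commutator (frm h).O).card_mul_index
      rw [index_commutator_of_sq nd rfl hg sq, cO] at this; omega
  refine ⟨dickson nd rfl hg, fun a ha => dickson_refl nd rfl hg (by change q a ≠ 0; simp [ha]), fun g => ?_⟩
  rw [← MonoidHom.mem_ker, ← commutator_eq_ker_dickson nd rfl hg sq, e]
  exact ⟨by rintro ⟨⟨_, k, rfl⟩, rfl⟩; exact ⟨k, fun _ => rfl⟩,
    fun ⟨k, a⟩ => ⟨⟨_, k, rfl⟩, Subtype.ext (LinearEquiv.ext a)⟩⟩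
end
theorem card_om : Nat.card (Cfsg.Omega (ZMod 2) (Cfsg.quadFormPlus 4 (ZMod 2))) = 174182400 := by
  have nd := qPlus_nondeg (F := ZMod 2) 4
  have := (commutator (ofQuad (qPlus 4 (ZMod 2))).O).card_mul_index
  rw [index_commutator_of_sq nd rfl (genHyp_of nd rfl (.inr (by simp))) (by decide), card_O_qPlus _ (by omega),
    ← Nat.card_congr (commutatorCongr (isomEquiv (qPlus 4 (ZMod 2)))).toEquiv, coe_qPlus] at this
  exact Nat.eq_of_mul_eq_mul_right two_pos (this.trans (by decide +kernel))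
abbrev N := Fin 4 → ZMod 2
abbrev M := N × N
def q4 (x : N) : ZMod 2 := x 0 * x 1 + x 0 * x 2 + x 0 * x 3 + x 1 * x 2 + x 1 * x 3 + x 2 * x 3
def b4 (x y : N) : ZMod 2 :=
  x 0 * (y 1 + y 2 + y 3) + x 1 * (y 0 + y 2 + y 3) + x 2 * (y 0 + y 1 + y 3) + x 3 * (y 0 + y 1 + y 2)
def q0 (v : M) : ZMod 2 := q4 v.1 + q4 v.2
def bt (x : N) : N := ![x 3, x 0 + x 3, x 1 + x 3, x 2 + x 3]
def pe : Fin 5 → N := ![![1, 0, 0, 0], ![0, 1, 0, 0], ![0, 0, 1, 0], ![0, 0, 0, 1], ![1, 1, 1, 1]]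
theorem q4_add (x y : N) : q4 (x + y) = q4 x + q4 y + b4 x y := by simp only [q4, b4, Pi.add_apply]; ring
theorem pol0 (u v : M) : pol q0 u v = b4 u.1 v.1 + b4 u.2 v.2 := by
  simp only [pol, q0, Prod.fst_add, Prod.snd_add, q4_add]
  linear_combination z2_two (q4 u.1) + z2_two (q4 v.1) + z2_two (q4 u.2) + z2_two (q4 v.2)
theorem b4_nd : ∀ x, (∀ y, b4 x y = 0) → x = 0 := by decide +kernel
theorem b4_z (x : N) : b4 x 0 = 0 := by simp [b4]
theorem b4_z' (x : N) : b4 0 x = 0 := by simp [b4]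
theorem q4_z : q4 0 = 0 := by decide
theorem n_two : ∀ x : N, x + x = 0 := by decide +kernel
theorem qf0 : QF q0 := ⟨fun v => Prod.ext (n_two _) (n_two _),
  fun u v w => by simp only [pol0, b4, Prod.fst_add, Prod.snd_add, Pi.add_apply]; ring,
  fun v a => Prod.ext (b4_nd _ fun y => by simpa [pol0, b4_z] using a (y, 0)) (b4_nd _ fun y => by simpa [pol0, b4_z] using a (0, y))⟩
theorem pe_inj : Function.Injective pe := by decide +kernel
theorem pe_sing : ∀ x, q4 x = 0 → x ≠ 0 → ∃ i, x = pe i := by decide +kernel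
theorem pe_q : ∀ i, q4 (pe i) = 0 ∧ pe i ≠ 0 ∧ bt (pe i) = pe (i + 1) := by decide +kernel
theorem pe_sw : ∀ i j, i ≠ j → q4 (pe i + pe j) = 1 ∧ ∀ l, pe l + b4 (pe i + pe j) (pe l) • (pe i + pe j) = pe (swap i j l) := by
  decide +kernel
theorem pe_span : ∀ x, ∃ i j l m, x = pe i + pe j + pe l + pe m := by decide +kernel
theorem ext2 {W F : Type*} [AddCommGroup W] [FunLike F M W] [AddHomClass F M W] {f g : F} (h1 : ∀ i, f (pe i, 0) = g (pe i, 0))
    (h2 : ∀ i, f (0, pe i) = g (0, pe i)) (v : M) : f v = g v := by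
  obtain ⟨i, j, l, m, a⟩ := pe_span v.1
  obtain ⟨i', j', l', m', c⟩ := pe_span v.2
  have : v = (pe i, 0) + (pe j, 0) + (pe l, 0) + (pe m, 0) + ((0, pe i') + (0, pe j') + (0, pe l') + (0, pe m')) := by ext1 <;> simp [a, c]
  rw [this]; simp only [map_add, h1, h2]
structure OM {K : Type*} [Group K] (π : K →* AL M) : Prop where
  iso : ∀ k v, q0 (π k v) = q0 v
  ex : ∃ s : (frm qf0).O →* ℤˣ, (∀ a, q0 a = 1 → s (refl rfl a) = -1) ∧ ∀ g, s g = 1 ↔ ∃ k, ∀ v, π k v = g.1 v
theorem side {s : (frm qf0).O →* ℤˣ} (hs : ∀ a, q0 a = 1 → s (refl rfl a) = -1) (e e' : N →ₗ[ZMod 2] M)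
    (h1 : ∀ x y, pol q0 (e x) (e y) = b4 x y) (h2 : ∀ x y, pol q0 (e x) (e' y) = 0) (h3 : ∀ x, q0 (e x) = q4 x) (σ : Perm (Fin 5)) :
    ∃ g, s g = Perm.sign σ ∧ (∀ i, g.1 (e (pe i)) = e (pe (σ i))) ∧ ∀ y, g.1 (e' y) = e' y := by
  induction σ using Perm.swap_induction_on with
  | one => exact ⟨1, by simp, fun _ => rfl, fun _ => rfl⟩
  | swap_mul σ i j n ih =>
    obtain ⟨g, a, b, c⟩ := ih
    have p := (h3 _).trans (pe_sw i j n).1
    refine ⟨refl rfl (e (pe i + pe j)) * g, by rw [map_mul, hs _ p, a, Perm.sign_mul, Perm.sign_swap n], fun l => ?_, fun y => ?_⟩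
    · change (refl (Φ := frm qf0) rfl _).1 (g.1 _) = _
      rw [b, frm_refl qf0 p, h1, ← map_smul, ← map_add, (pe_sw i j n).2]; rfl
    · change (refl (Φ := frm qf0) rfl _).1 (g.1 _) = _
      rw [c, frm_refl qf0 p, h2, zero_smul, add_zero]
namespace OM
variable {K : Type*} [Group K] {π : K →* AL M} (h : OM π)
include h
theorem pol (k : K) (u v : M) : pol q0 (π k u) (π k v) = pol q0 u v := by rw [H13.pol, ← map_add, h.iso, h.iso, h.iso]; rfl
theorem perm (σ τ : Perm (Fin 5)) : (∃ k, (∀ i, π k (pe i, 0) = (pe (σ i), 0)) ∧ ∀ i, π k (0, pe i) = (0, pe (τ i))) ↔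
    Perm.sign σ = Perm.sign τ := by
  obtain ⟨s, hs, e⟩ := h.ex
  obtain ⟨g, a, b, c⟩ := side hs (.inl _ _ _) (.inr _ _ _) (by simp [pol0, b4_z]) (by simp [pol0, b4_z, b4_z']) (by simp [q0, q4_z]) σ
  obtain ⟨g', a', b', c'⟩ := side hs (.inr _ _ _) (.inl _ _ _) (by simp [pol0, b4_z]) (by simp [pol0, b4_z, b4_z']) (by simp [q0, q4_z]) τ
  have p : ∀ i, (g * g').1 (pe i, 0) = (pe (σ i), 0) := fun i => (congrArg g.1 (c' _)).trans (b i)
  have r : ∀ i, (g * g').1 (0, pe i) = (0, pe (τ i)) := fun i => (congrArg g.1 (b' i)).trans (c _)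
  have := e (g * g')
  rw [map_mul, a, a', mul_eq_one_iff_eq_inv, Int.units_inv_eq_self] at this
  rw [this]
  exact exists_congr fun k => ⟨fun ⟨x, y⟩ => ext2 (f := (π k).toAddEquiv) (g := (g * g').1.toAddEquiv) (fun i => (x i).trans (p i).symm)
    fun i => (y i).trans (r i).symm, fun x => ⟨fun i => (x _).trans (p i), fun i => (x _).trans (r i)⟩⟩
theorem two {a c : M} (ha : q0 a = 1) (hc : q0 c = 1) : ∃ k, ∀ v w, w = v + H13.pol q0 c v • c → π k v = w + H13.pol q0 a w • a := by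
  obtain ⟨s, hs, e⟩ := h.ex
  obtain ⟨k, p⟩ := (e (refl rfl a * refl rfl c)).1 (by rw [map_mul, hs a ha, hs c hc]; rfl)
  exact ⟨k, fun v w r => (p v).trans (by rw [r, ← frm_refl qf0 hc, ← frm_refl qf0 ha]; rfl)⟩
theorem trans {v : M} (h0 : v ≠ 0) (hv : q0 v = 0) : ∃ k, π k v = (0, pe 0) := by
  have st : ∀ x y : M, q0 x = 0 → q0 y = 0 → H13.pol q0 x y = 1 → q0 (x + y) = 1 ∧ y = x + H13.pol q0 (x + y) x • (x + y) :=
    fun x y a b c => ⟨by rw [q_add q0, a, b, c]; rfl, by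
      rw [qf0.add, qf0.self, pol_comm, c, zero_add, one_smul, ← add_assoc, qf0.two, zero_add]⟩
  obtain ⟨y, a, b, c⟩ : ∃ y, q0 y = 0 ∧ H13.pol q0 v y = 1 ∧ H13.pol q0 y (0, pe 0) = 1 := by revert v; decide +kernel
  obtain ⟨k, p⟩ := h.two (st y _ a (by decide) c).1 (st v y hv a b).1
  exact ⟨k, (p v y (st v y hv a b).2).trans (st y _ a (by decide) c).2.symm⟩
end OM
end
end H4.Hc
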