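import Cfsg.Agent.H4.Hc1
/-! Coordinates adapted to an isometry of order five with an elliptic four-space of fixed vectors. -/
set_option autoImplicit false
namespace H4.Hc
noncomputable section
open H13
variable {V : Type*} [AddCommGroup V] {q : V → ZMod 2} (h : QF q)
include h
theorem frame [Module (ZMod 2) V] {a b c d : V} (qa : q a = 0) (qb : q b = 0) (qc : q c = 0) (qd : q d = 0) (ab : pol q a b = 1)
    (ac : pol q a c = 1) (ad : pol q a d = 1) (bc : pol q b c = 1) (bd : pol q b d = 1) (cd : pol q c d = 1) (x : N) :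
    q (Fintype.linearCombination (ZMod 2) ![a, b, c, d] x) = q4 x := by
  rw [Fintype.linearCombination_apply, Fin.sum_univ_four]
  change q (x 0 • a + x 1 • b + x 2 • c + x 3 • d) = _
  simp only [q_add q, h.add, q_sm h, pol_sm h, pol_sm' h, qa, qb, qc, qd, ab, ac, ad, bc, bd, cd, q4]; ring
theorem coord [Finite V] (hV : Nat.card V = 256) (β : V →+ V) (hq : ∀ v, q (β v) = q v) (h5 : ∀ v, β (β (β (β (β v)))) = v)
    (h1 : ∃ v, β v ≠ v) (hF : 4 < {v | β v = v}.ncard)
    (hm : ∀ x y, β x = x → β y = y → q x = 0 → q y = 0 → pol q x y = 0 → x = 0 ∨ y = 0 ∨ x = y) :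
    ∃ ψ : M ≃+ V, (∀ v, q (ψ v) = q0 v) ∧ ∀ x y, β (ψ (x, y)) = ψ (bt x, y) := by
  let : Module (ZMod 2) V := AddCommGroup.zmodModule fun v => by rw [two_nsmul, h.two]
  have pb : ∀ x y, pol q (β x) (β y) = pol q x y := fun x y => by rw [pol, ← map_add, hq, hq, hq]; rfl
  have sm : ∀ (c : ZMod 2) v, β (c • v) = c • β v := ZMod.map_smul β
  obtain ⟨S, hS⟩ : ∃ S : V →+ V, ∀ v, S v = v + β v + β (β v) + β (β (β v)) + β (β (β (β v))) :=
    ⟨.id V + β + β.comp β + β.comp (β.comp β) + β.comp (β.comp (β.comp β)), fun _ => rfl⟩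
  have bS : ∀ v, β (S v) = S v := fun v => by rw [hS]; simp only [map_add, h5]; abel
  have pS : ∀ x v, β x = x → pol q x (S v) = pol q x v := fun x v a => by
    have : ∀ v, pol q x (β v) = pol q x v := fun v => by rw [← pb x v, a]
    rw [hS]; simp only [h.add', this]; linear_combination 2 * z2_two (pol q x v)
  have o1 : ∀ {c : ZMod 2}, c ≠ 0 → c = 1 := by decide
  have par : ∀ v, β v = v → v ≠ 0 → ∃ y, β y = y ∧ pol q v y = 1 := fun v a b => by
    obtain ⟨w, c⟩ := not_forall.1 (mt (h.nd v) b)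
    exact ⟨S w, bS w, (pS v w a).trans (o1 c)⟩
  have prj : ∀ v w c, pol q v w = 1 → pol q (c + pol q c w • v + pol q c v • w) v = 0 ∧ pol q (c + pol q c w • v + pol q c v • w) w = 0 :=
    fun v w c a => by simp [h.add, pol_sm h, h.self, a, pol_comm q w v, z2_two]
  have step : ∀ v, β v = v → v ≠ 0 → ∃ w, β w = w ∧ pol q v w = 1 ∧ (q v = 0 → q w = 0) ∧
      ∃ a, β a = a ∧ a ≠ 0 ∧ pol q a v = 0 ∧ pol q a w = 0 := fun v a b => by
    obtain ⟨y, c, d⟩ := par v a b
    have e : pol q v (y + q y • v) = 1 := by rw [h.add', pol_sm' h, h.self, d, mul_zero, add_zero]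
    have f : β (y + q y • v) = y + q y • v := by rw [map_add, sm, a, c]
    refine ⟨y + q y • v, f, e, fun g => by rw [q_add q, q_sm h, pol_sm' h, pol_comm, d, g]; simp [z2_two], ?_⟩
    generalize y + q y • v = w at e f
    obtain ⟨x, i, j⟩ := Set.exists_mem_notMem_of_ncard_lt_ncard (s := {0, v, w, v + w}) (t := {v | β v = v})
      (lt_of_le_of_lt (by
        refine (Set.ncard_insert_le _ _).trans (Nat.succ_le_succ ((Set.ncard_insert_le _ _).trans (Nat.succ_le_succ ?_)))
        exact (Set.ncard_insert_le _ _).trans (by simp)) hF)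
    refine ⟨_, by rw [map_add, map_add, sm, sm, a, f, i], fun k => j ?_, prj v w x e⟩
    rw [add_assoc] at k
    rw [h.eq_of k]
    rcases z2_cases (pol q x w) with k | k <;> rcases z2_cases (pol q x v) with l | l <;> simp [k, l]
  obtain ⟨u0, f0, n0, q0'⟩ : ∃ u, β u = u ∧ u ≠ 0 ∧ q u = 0 := by
    obtain ⟨v, i, j⟩ := Set.exists_mem_notMem_of_ncard_lt_ncard (s := {0}) (t := {v | β v = v}) (lt_trans (by simp) hF)
    obtain ⟨w, -, b, -, a, c, d, e, f⟩ := step v i j
    by_cases k : q v = 0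
    · exact ⟨v, i, j, k⟩
    by_cases l : q a = 0
    · exact ⟨a, c, d, l⟩
    refine ⟨a + v, by rw [map_add, c, i], fun m => ?_, by rw [q_add q, o1 k, o1 l, e]; rfl⟩
    rw [h.eq_of m, b] at f; exact one_ne_zero f
  obtain ⟨u1, f1, p01, q1, a, fa, na, a0, a1⟩ := step u0 f0 n0
  replace q1 := q1 q0'
  obtain ⟨c, fc, ac, c0, c1⟩ : ∃ c, β c = c ∧ pol q a c = 1 ∧ pol q c u0 = 0 ∧ pol q c u1 = 0 := by
    obtain ⟨c, i, j⟩ := par a fa na
    exact ⟨_, by rw [map_add, map_add, sm, sm, f0, f1, i], by simp [h.add', pol_sm' h, a0, a1, j], prj u0 u1 c p01⟩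
  have ns : ∀ x, β x = x → x ≠ 0 → pol q x u0 = 0 → pol q x u1 = 0 → q x = 1 := fun x i j k l => o1 fun m => by
    rcases hm x u0 i f0 m q0' k with e | e | e
    exacts [j e, n0 e, one_ne_zero (p01.symm.trans (e ▸ l))]
  have qa := ns a fa na a0 a1
  have qc := ns c fc (fun e => by rw [e, h.zero'] at ac; exact zero_ne_one ac) c0 c1
  have z1 : (1 : ZMod 2) + 1 = 0 := rfl
  have fw := frame h (c := u0 + u1 + a) (d := u0 + u1 + c) q0' q1 (by simp [q_add q, h.add, pol_comm q _ a, *])
    (by simp [q_add q, h.add, pol_comm q _ c, *]) p01 (by simp [h.add', h.self, pol_comm q _ a, *])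
    (by simp [h.add', h.self, pol_comm q _ c, *]) (by simp [h.add', h.self, pol_comm q u1 a, pol_comm q u1 u0, *])
    (by simp [h.add', h.self, pol_comm q u1 c, pol_comm q u1 u0, *])
    (by simp [h.add, h.add', h.self, pol_comm q u1 c, pol_comm q u0 c, pol_comm q u1 u0, *])
  obtain ⟨v, sv, qv⟩ : ∃ v, S v = 0 ∧ q v = 1 := by
    by_contra! k
    replace k : ∀ v, S v = 0 → q v = 0 := fun v a => by_contra fun b => k v a (o1 b)
    obtain ⟨v, b⟩ := h1
    have sv : S (β v + v) = 0 := by rw [map_add, hS, hS, h5]; simp only [← h.two (S v), hS]; abel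
    refine b (h.eq_of (h.nd _ fun w => ?_))
    have sw : S (w + S w) = 0 := by rw [map_add, hS (S w)]; simp only [bS, h.two, zero_add]
    have : pol q (β v + v) (w + S w) = 0 := by rw [pol, k _ sv, k _ sw, k _ (by rw [map_add, sv, sw, add_zero])]; rfl
    rwa [h.add', pol_comm q _ (S w), ← pS _ _ (bS w), sv, h.zero', add_zero] at this
  have s4 : ∀ v, S v = 0 → β (β (β (β v))) = v + β v + β (β v) + β (β (β v)) := fun v a => (h.eq_of ((hS v).symm.trans a)).symm
  have p3 : ∀ v, pol q v (β (β (β v))) = pol q v (β (β v)) := fun v => by rw [← pb, ← pb, h5, pol_comm]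
  have p4 : ∀ v, pol q v (β (β (β (β v)))) = pol q v (β v) := fun v => by rw [← pb, h5, pol_comm]
  have pp : ∀ v, S v = 0 → pol q v (β v) + pol q v (β (β v)) = q v := fun v a => by
    have := hq (β (β (β v)))
    rw [s4 v a] at this
    simp only [q_add q, h.add, hq, pb, p3] at this
    linear_combination this - 2 * z2_two (q v) - z2_two (pol q v (β v)) - z2_two (pol q v (β (β v)))
  obtain ⟨u, su, qu, pu⟩ : ∃ u, S u = 0 ∧ q u = 0 ∧ pol q u (β u) = 1 := by
    have k := (pp v sv).trans qv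
    have sb : ∀ v, S v = 0 → S (β v) = 0 := fun v a => by rw [← map_zero β, ← a, hS, hS]; simp only [map_add]
    rcases z2_cases (pol q v (β v)) with l | l <;> rw [l] at k
    · exact ⟨v + β v, by rw [map_add, sv, sb v sv, add_zero], by rw [q_add q, hq, qv, l]; rfl, by
        simp only [map_add, h.add, h.add', pb, h.self, l]; simpa using k⟩
    · replace k : pol q v (β (β v)) = 0 := by simpa using k
      exact ⟨v + β (β v), by rw [map_add, sv, sb _ (sb v sv), add_zero], by rw [q_add q, hq, hq, qv, k]; rfl, by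
        simp only [map_add, h.add, h.add', pb, p3, pol_comm q (β v) v, l, k]; rfl⟩
  have pu2 : pol q u (β (β u)) = 1 := by have := pp u su; rw [pu, qu] at this; revert this; generalize pol q u _ = t; revert t; decide
  have fu := frame h (a := u) (b := β u) (c := β (β u)) (d := β (β (β u))) qu (by rw [hq, qu]) (by rw [hq, hq, qu])
    (by rw [hq, hq, hq, qu]) pu pu2 (by rw [p3, pu2]) (by rw [pb, pu]) (by rw [pb, pu2]) (by rw [pb, pb, pu])
  set A := Fintype.linearCombination (ZMod 2) ![u, β u, β (β u), β (β (β u))]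
  set C := Fintype.linearCombination (ZMod 2) ![u0, u1, u0 + u1 + a, u0 + u1 + c]
  have hA : ∀ x, A x = x 0 • u + x 1 • β u + x 2 • β (β u) + x 3 • β (β (β u)) := fun x => by
    rw [Fintype.linearCombination_apply, Fin.sum_univ_four]; rfl
  have bC : ∀ y, β (C y) = C y := fun y => by
    rw [Fintype.linearCombination_apply, Fin.sum_univ_four]; simp [*]
  have bA : ∀ x, β (A x) = A (bt x) := fun x => by
    rw [hA, hA]; simp only [map_add, sm, s4 u su, bt, smul_add, add_smul, Matrix.cons_val]; abel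
  have AC : ∀ x y, pol q (A x) (C y) = 0 := fun x y => by
    have : ∀ v, pol q (β v) (C y) = pol q v (C y) := fun v => by rw [← pb v, bC]
    have e : pol q u (C y) = 0 := by rw [pol_comm, ← pS _ _ (bC y), su, h.zero']
    simp [hA, h.add, pol_sm h, this, e]
  have qψ : ∀ v, q (A.coprod C v) = q0 v := fun v => by rw [LinearMap.coprod_apply, q_add q, fu, fw, AC, add_zero]; rfl
  have inj : Function.Injective (A.coprod C) := (injective_iff_map_eq_zero _).2 fun v e => qf0.nd v fun w => by
    rw [pol, ← qψ, ← qψ, ← qψ, map_add]; exact (congrArg (pol q · _) e).trans (h.zero _)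
  refine ⟨.ofBijective (A.coprod C).toAddMonoidHom ((Nat.bijective_iff_injective_and_card _).2 ⟨inj, by rw [hV]; simp⟩), qψ,
    fun x y => ?_⟩
  change β (A x + C y) = A (bt x) + C y
  rw [map_add, bA, bC]
end
end H4.Hc
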