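import Cfsg.Agent.H4.Hc1
import Cfsg.Agent.H13.LX4
/-! An element of order five in the centralizer of the involution of a group of Conway type. -/
set_option autoImplicit false
set_option linter.unusedSectionVars false
namespace H4.Hc
noncomputable section
open H13 Equiv Subgroup
open scoped Pointwise
theorem span_ind (p : N → Prop) (ha : ∀ x y, p x → p y → p (x + y)) (hp : ∀ i, p (pe i)) (x : N) : p x := by
  obtain ⟨i, j, l, m, rfl⟩ := pe_span x
  exact ha _ _ (ha _ _ (ha _ _ (hp i) (hp j)) (hp l)) (hp m)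
theorem mk1 (x y : N) : ((x + y, 0) : M) = (x, 0) + (y, 0) := by simp
theorem mk2 (x y : N) : ((0, x + y) : M) = (0, x) + (0, y) := by simp
theorem mk12 (v : M) : v = (v.1, 0) + (0, v.2) := by simp
theorem bt_fix : ∀ x, bt x = x → x = 0 := by decide +kernel
theorem bt_z : bt 0 = 0 := by decide +kernel
theorem bt_sur : ∀ v, ∃ w, v = w + bt w := by decide +kernel
theorem exists_theta {Y : Type*} [Group Y] (ρ : Y →* AL M) {e : N → M} (he : Function.Injective e)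
    (h : ∀ y i, ∃ j, ρ y (e (pe i)) = e (pe j)) : ∃ θ : Y →* Perm (Fin 5), ∀ y i, ρ y (e (pe i)) = e (pe (θ y i)) := by
  choose f hf using h
  let F : Y →* Function.End (Fin 5) :=
    { toFun := f
      map_one' := funext fun i => pe_inj (he (by rw [← hf, map_one]; rfl))
      map_mul' := fun a b => funext fun i => pe_inj (he (by rw [← hf, map_mul]; change ρ a (ρ b _) = _; rw [hf, hf]; rfl)) }
  exact ⟨F.toHomPerm, hf⟩
namespace OM
variable {K : Type*} [Group K] {π : K →* AL M} (h : OM π)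
include h
theorem comp {L : Type*} [Group L] {c : L →* K} (hc : Function.Surjective c) : OM (π.comp c) :=
  ⟨fun k => h.iso (c k), h.ex.imp fun _ a => ⟨a.1, fun g => (a.2 g).trans hc.exists⟩⟩
theorem pol' (k : K) (u v : M) : H13.pol q0 (π k u) v = H13.pol q0 u (π k⁻¹ v) := by rw [← h.pol k u, map_inv]; simp
theorem pres1 {k : K} (hk : ∀ y, (π k⁻¹ (0, y)).1 = 0) (x : N) : (π k (x, 0)).2 = 0 :=
  b4_nd _ fun y => by simpa only [pol0, b4_z, b4_z', hk, zero_add, add_zero] using h.pol' k (x, 0) (0, y)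
theorem pres2 {k : K} (hk : ∀ y, (π k⁻¹ (y, 0)).2 = 0) (x : N) : (π k (0, x)).1 = 0 :=
  b4_nd _ fun y => by simpa only [pol0, b4_z, b4_z', hk, zero_add, add_zero] using h.pol' k (0, x) (y, 0)
theorem pent1 {k : K} (hk : ∀ y, (π k (y, 0)).2 = 0) (i : Fin 5) : ∃ j, π k (pe i, 0) = (pe j, 0) := by
  obtain ⟨j, a⟩ := pe_sing (π k (pe i, 0)).1 (by simpa [q0, hk, q4_z, pe_q] using h.iso k (pe i, 0))
    fun e => (pe_q i).2.1 (congrArg Prod.fst ((map_eq_zero_iff _ (π k).injective).1 (Prod.ext e (hk _))))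
  exact ⟨j, Prod.ext a (hk _)⟩
theorem pent2 {k : K} (hk : ∀ y, (π k (0, y)).1 = 0) (i : Fin 5) : ∃ j, π k (0, pe i) = (0, pe j) := by
  obtain ⟨j, a⟩ := pe_sing (π k (0, pe i)).2 (by simpa [q0, hk, q4_z, pe_q] using h.iso k (0, pe i))
    fun e => (pe_q i).2.1 (congrArg Prod.snd ((map_eq_zero_iff _ (π k).injective).1 (Prod.ext (hk _) e)))
  exact ⟨j, Prod.ext (hk _) a⟩
end OM
universe u
variable {G : Type u} [Group G]
theorem odd_comm {z : G} {R : Subgroup G} {w : ℕ} (h : XS z R w) {n : ℕ} (ho : Odd n) {k l : G} (hk : k ∈ Cz z) (e : k * l * k⁻¹ = l * z) (hn : k ^ n = 1) : Commute k l := by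
  obtain ⟨m, rfl⟩ := ho
  have : Commute (k ^ 2) l := conj_eq_iff.1 (by
    calc _ = k * (k * l * k⁻¹) * k⁻¹ := by rw [pow_two, mul_inv_rev]; simp only [mul_assoc]
      _ = k * l * k⁻¹ * (k * z * k⁻¹) := by conv_lhs => rw [e]
                                            group
      _ = l := by rw [e, mem_Cz'.1 hk, mul_assoc, h.zz, mul_one])
  rw [pow_succ, pow_mul] at hn
  rw [eq_inv_of_mul_eq_one_right hn]; exact (this.pow_left m).inv_left
structure CW (z : G) (R : Subgroup G) (π : Cz z →* AL M) (P : M → G → Prop) (b : G) : Prop extends XQ z R 4 q0 π P where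
  om : OM π
  b5 : orderOf b = 5
  hb : b ∈ Cz z
  ab : ∀ x y, π ⟨b, hb⟩ (x, y) = (bt x, y)
def In1 (P : M → G → Prop) (k : G) : Prop := ∀ v x, P (0, v) x → Commute k x
def In2 (P : M → G → Prop) (k : G) : Prop := ∀ v x, P (v, 0) x → Commute k x
def cjz (z g : G) : Cz (g * z * g⁻¹) →* Cz z where
  toFun k := ⟨g⁻¹ * k * g, conj_mem_Cz.2 k.2⟩
  map_one' := Subtype.ext (by simp)
  map_mul' a b := Subtype.ext (by simp [mul_assoc])
namespace CW
variable {z b : G} {R : Subgroup G} {π : Cz z →* AL M} {P : M → G → Prop} (h : CW z R π P b) [Finite G]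
include h
theorem cnj {g : G} (hg : Commute g b) : CW (g * z * g⁻¹) (MulAut.conj g • R) (π.comp (cjz z g)) (fun v x => P v (g⁻¹ * x * g)) b := by
  have m : ∀ x, x ∈ MulAut.conj g • R ↔ g⁻¹ * x * g ∈ R := fun x => by
    rw [mem_pointwise_smul_iff_inv_smul_mem, ← map_inv, MulAut.smul_def, MulAut.conj_apply, inv_inv]
  have e : g⁻¹ * b * g = b := by rw [mul_assoc, ← hg.eq, inv_mul_cancel_left]
  have o : ∀ x y : G, g⁻¹ * x * g = y ↔ x = g * y * g⁻¹ := fun x y => ⟨fun a => by rw [← a]; group, fun a => by rw [a]; group⟩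
  exact { h.toXS.smul g with
    ker := fun k => (h.ker _).trans (m _).symm
    mem := fun a => (m _).2 (h.mem a)
    ex := fun v => let ⟨x, a⟩ := h.ex v; ⟨g * x * g⁻¹, by simpa [mul_assoc] using a⟩
    ex' := fun x hx => h.ex' _ ((m x).1 hx)
    mul := fun a c => by simpa [mul_assoc] using h.mul a c
    zero := by simpa [mul_assoc] using h.zero
    iff := fun a => by rw [← h.iff a, o, o]; simp
    act := fun k _ _ a => by simpa [mul_assoc, cjz] using h.act (cjz z g k) a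
    sq' := fun {_ x} a => by rw [← h.sq' a, show g⁻¹ * x * g * (g⁻¹ * x * g) = g⁻¹ * (x * x) * g by group, o]; simp
    qf := qf0
    om := h.om.comp fun k => ⟨⟨g * k * g⁻¹, conj_mem_Cz.1 (by simp [mul_assoc])⟩, Subtype.ext (by simp [cjz, mul_assoc])⟩
    b5 := h.b5
    hb := conj_mem_Cz.1 (e.symm ▸ h.hb)
    ab := fun x y => by rw [← h.ab]; exact congrArg (fun k => π k (x, y)) (Subtype.ext e) }
theorem p1 {v : M} {x : G} (a : P v x) (c : v.2 = 0) : P (v.1, 0) x := c ▸ a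
theorem p2 {v : M} {x : G} (a : P v x) (c : v.1 = 0) : P (0, v.2) x := c ▸ a
theorem bb : b ^ 5 = 1 := h.b5 ▸ pow_orderOf_eq_one b
theorem fixP {k : G} (hk : k ∈ Cz z) {n : ℕ} (hn : k ^ n = 1) (ho : Odd n) {v : M} {x : G} (a : P v x) (c : π ⟨k, hk⟩ v = v) :
    Commute k x := ((h.uniq a (h.act' hk a)).2 c.symm).elim conj_eq_iff.1 (odd_comm h.toXS ho hk · hn)
theorem fix_of {k : G} (hk : k ∈ Cz z) {v : M} {x : G} (a : P v x) (c : Commute k x) : π ⟨k, hk⟩ v = v :=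
  ((h.uniq a (h.act' hk a)).1 (.inl (conj_eq_iff.2 c))).symm
theorem mem2 {v : M} {x : G} (a : P v x) : Commute b x ↔ v.1 = 0 :=
  ⟨fun c => bt_fix _ (congrArg Prod.fst ((h.ab _ _).symm.trans (h.fix_of h.hb a c))), fun c =>
    h.fixP h.hb h.bb (by decide) a ((h.ab _ _).trans (Prod.ext (by rw [c]; exact bt_z) rfl))⟩
theorem b1 : In1 P b := fun _ _ a => (h.mem2 a).2 rfl
theorem cz1 {k : G} (a : In1 P k) : k ∈ Cz z := mem_Cz.2 (a 0 z h.zero.2)
theorem cz2 {k : G} (a : In2 P k) : k ∈ Cz z := mem_Cz.2 (a 0 z h.zero.2)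
theorem f1 {k : G} (a : In1 P k) (hk : k ∈ Cz z) (y : N) : π ⟨k, hk⟩ (0, y) = (0, y) := let ⟨_, c⟩ := h.ex (0, y); h.fix_of hk c (a _ _ c)
theorem f2 {k : G} (a : In2 P k) (hk : k ∈ Cz z) (y : N) : π ⟨k, hk⟩ (y, 0) = (y, 0) := let ⟨_, c⟩ := h.ex (y, 0); h.fix_of hk c (a _ _ c)
theorem g1 {k : G} (a : In1 P k) (hk : k ∈ Cz z) (y : N) : (π ⟨k, hk⟩ (y, 0)).2 = 0 :=
  h.om.pres1 (fun y => congrArg Prod.fst (h.f1 (fun v x c => (a v x c).inv_left) (inv_mem hk) y)) y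
theorem g2 {k : G} (a : In2 P k) (hk : k ∈ Cz z) (y : N) : (π ⟨k, hk⟩ (0, y)).1 = 0 :=
  h.om.pres2 (fun y => congrArg Prod.snd (h.f2 (fun v x c => (a v x c).inv_left) (inv_mem hk) y)) y
theorem in1 {v : M} {x : G} (a : P v x) : In1 P x ↔ v.2 = 0 :=
  ⟨fun c => b4_nd _ fun y => let ⟨_, d⟩ := h.ex (0, y); by simpa [pol0, b4_z] using (h.comm_iff a d).1 (c _ _ d),
    fun c y _ d => (h.comm_iff a d).2 (by simp [pol0, b4_z, b4_z', c])⟩
theorem in2 {v : M} {x : G} (a : P v x) : In2 P x ↔ v.1 = 0 :=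
  ⟨fun c => b4_nd _ fun y => let ⟨_, d⟩ := h.ex (y, 0); by simpa [pol0, b4_z] using (h.comm_iff a d).1 (c _ _ d),
    fun c y _ d => (h.comm_iff a d).2 (by simp [pol0, b4_z, b4_z', c])⟩
theorem cb {k : Cz z} (c : Commute (k : G) b) (v : M) : π k (bt v.1, v.2) = (bt (π k v).1, (π k v).2) := by
  rw [← h.ab, ← h.ab]
  exact congrArg (fun g => g v) (show π k * π ⟨b, h.hb⟩ = π ⟨b, h.hb⟩ * π k by
    rw [← map_mul, ← map_mul]; exact congrArg π (Subtype.ext c))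
theorem cb2 {k : Cz z} (c : Commute (k : G) b) (y : N) : (π k (0, y)).1 = 0 :=
  bt_fix _ (congrArg Prod.fst (by simpa [bt_z] using h.cb c (0, y) : π k (0, y) = (bt (π k (0, y)).1, (π k (0, y)).2))).symm
theorem cb1 {k : Cz z} (c : Commute (k : G) b) (y : N) : (π k (y, 0)).2 = 0 := h.om.pres1 (h.cb2 (k := k⁻¹) c.inv_left) y
theorem act1 {k : Cz z} (c : Commute (k : G) b) : ∃ i, ∀ j, π k (pe j, 0) = (pe (j + i), 0) := by
  obtain ⟨i, h0⟩ := h.om.pent1 (h.cb1 c) 0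
  have st : ∀ {j l}, π k (pe j, 0) = (pe l, 0) → π k (pe (j + 1), 0) = (pe (l + 1), 0) := fun {j l} a => by
    simpa only [a, (pe_q _).2.2] using h.cb c (pe j, 0)
  have e : ∀ i : Fin 5, i = 0 + i ∧ i + 1 = 1 + i ∧ i + 1 + 1 = 2 + i ∧ i + 1 + 1 + 1 = 3 + i ∧ i + 1 + 1 + 1 + 1 = 4 + i := by decide
  refine ⟨i, fun j => ?_⟩
  fin_cases j
  exacts [(e i).1 ▸ h0, (e i).2.1 ▸ st h0, (e i).2.2.1 ▸ st (st h0), (e i).2.2.2.1 ▸ st (st (st h0)), (e i).2.2.2.2 ▸ st (st (st (st h0)))]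
omit h in
theorem act_pow {k : Cz z} {i : Fin 5} (a : ∀ j, π k (pe j, 0) = (pe (j + i), 0)) (n : ℕ) (j : Fin 5) :
    π (k ^ n) (pe j, 0) = (pe (j + n • i), 0) := by
  induction n with
  | zero => simp
  | succ n ih => rw [pow_succ', map_mul, succ_nsmul, ← add_assoc, ← a, ← ih]; rfl
theorem in2_of {k : Cz z} (c : Commute (k : G) b) (a : ∀ j, π k (pe j, 0) = (pe j, 0)) : In2 P k := fun v x d => by
  obtain ⟨w, rfl⟩ := bt_sur v
  obtain ⟨y, e⟩ := h.ex (w, 0)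
  have f := h.act' h.hb e
  rw [h.ab] at f
  have t : π k (w, 0) = (w, 0) := span_ind (fun w => π k (w, 0) = (w, 0)) (fun x y i j => by rw [mk1, map_add, i, j]) a w
  have s : Commute (k : G) (y * (b * y * b⁻¹)) := conj_eq_iff.1 (by
    have : k * (y * (b * y * b⁻¹)) * (k : G)⁻¹ = k * y * (k : G)⁻¹ * (b * (k * y * (k : G)⁻¹) * b⁻¹) := by
      rw [show b * (k * y * (k : G)⁻¹) * b⁻¹ = b * k * y * (b * k)⁻¹ by group, ← c.eq]; group
    rw [this]
    rcases (h.uniq e (h.act' k.2 e)).2 t.symm with i | i <;> rw [i]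
    calc _ = y * (z * (b * y * b⁻¹) * (b * z * b⁻¹)) := by group
      _ = _ := by rw [mem_Cz'.1 h.hb, ← h.comm (h.mem f), mul_assoc _ z, h.zz, mul_one])
  rcases (h.uniq (h.mul e f) d).2 (mk1 _ _).symm with i | i <;> rw [i]
  exacts [s, s.mul_right (mem_Cz.1 k.2)]
theorem in2_12 {k : G} (hk : k ∈ Cz z) (c : Commute k b) (a : k ^ 12 = 1) : In2 P k := by
  obtain ⟨i, d⟩ := h.act1 (k := ⟨k, hk⟩) c
  have := act_pow d 12 0
  rw [show (⟨k, hk⟩ : Cz z) ^ 12 = 1 from Subtype.ext a, map_one] at this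
  have e : ∀ i : Fin 5, 0 = 0 + 12 • i → i = 0 := by decide
  obtain rfl := e i (pe_inj (congrArg Prod.fst this))
  exact h.in2_of (k := ⟨k, hk⟩) c (by simpa using d)
theorem comm12 {k l : G} (a : In1 P k) (c : In2 P l) {n : ℕ} (ho : Odd n) (hn : k ^ n = 1 ∨ l ^ n = 1) : Commute k l := by
  have hk := h.cz1 a
  have hl := h.cz2 c
  have : k * l * k⁻¹ * l⁻¹ ∈ centralizer (R : Set G) := fun x hx => by
    obtain ⟨v, d⟩ := h.ex' x hx
    obtain ⟨x1, d1⟩ := h.ex (v.1, 0)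
    obtain ⟨x2, d2⟩ := h.ex (0, v.2)
    have e1 : Commute (k * l * k⁻¹ * l⁻¹) x1 := by
      refine Commute.mul_left (commute_conj_iff.2 (c (π ⟨k⁻¹, inv_mem hk⟩ (v.1, 0)).1 _ ?_)) (c _ _ d1).inv_left
      simpa only [inv_inv] using h.p1 (h.act' (inv_mem hk) d1) (h.g1 (fun v x c => (a v x c).inv_left) (inv_mem hk) v.1)
    have e2 : Commute (k * l * k⁻¹ * l⁻¹) x2 := by
      rw [mul_assoc, mul_assoc, ← mul_assoc l]
      refine (a _ _ d2).mul_left (commute_conj_iff.2 (a (π ⟨l⁻¹, inv_mem hl⟩ (0, v.2)).2 _ ?_).inv_left)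
      simpa only [inv_inv] using h.p2 (h.act' (inv_mem hl) d2) (h.g2 (fun v x d => (c v x d).inv_left) (inv_mem hl) v.2)
    have ez : Commute (k * l * k⁻¹ * l⁻¹) z := mem_Cz.1 (mul_mem (mul_mem (mul_mem hk hl) (inv_mem hk)) (inv_mem hl))
    rcases (h.uniq (h.mul d1 d2) d).2 (mk12 v).symm with i | i <;> rw [i]
    exacts [(e1.mul_right e2).symm, ((e1.mul_right e2).mul_right ez).symm]
  rcases h.cent this with e | e
  · exact conj_eq_iff.1 (mul_inv_eq_one.1 e)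
  rcases hn with hn | hn
  · exact odd_comm h.toXS ho hk (by rw [mem_Cz.1 hl, ← e]; group) hn
  · refine (odd_comm h.toXS ho hl ?_ hn).symm
    rw [mem_Cz.1 hk, ← h.z_inv, ← e]; group
end CW
end
end H4.Hc
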