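import Cfsg.Agent.H4.Hc3
/-! Conjugates of the central involution under the centralizer of the element of order five. -/
set_option autoImplicit false
set_option linter.unusedSectionVars false
namespace H4.Hc
noncomputable section
open H13 Equiv Subgroup
set_option synthInstance.maxSize 2000 in
set_option synthInstance.maxHeartbeats 200000 in
theorem dbl : ∀ σ : Perm (Fin 5), σ * σ = 1 → Perm.sign σ = 1 → σ = 1 ∨ ∃ i j, q4 (pe (σ i) + pe i) = 1 ∧ ∀ w,
    b4 w (pe (σ i) + pe i) = 0 → b4 w (pe (σ j) + pe j) = 0 →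
      w = 0 ∨ w = pe (σ i) + pe i ∨ w = pe (σ j) + pe j ∨ w = pe (σ i) + pe i + (pe (σ j) + pe j) := by decide +kernel
theorem irr : ∀ v : N, v ≠ 0 → ∀ w, ∃ i j : Fin 5, w = bt^[i] v + bt^[j] v ∨ w = bt^[i] v := by decide +kernel
theorem comfix (f : ℕ → N → N) (ha : ∀ i x y, f i (x + y) = f i x + f i y) (h2 : ∀ i v, f i (f i v) = v)
    (hc : ∀ i j v, f i (f j v) = f j (f i v)) (n : ℕ) : ∃ v ≠ 0, ∀ i < n, f i v = v := by
  induction n with
  | zero => exact ⟨pe 0, (pe_q 0).2.1, by simp⟩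
  | succ n ih =>
    obtain ⟨v, a, b⟩ := ih
    by_cases c : f n v = v
    · exact ⟨v, a, fun i hi => (Nat.lt_succ_iff_lt_or_eq.1 hi).elim (b i) (· ▸ c)⟩
    refine ⟨v + f n v, fun e => c ?_, fun i hi => ?_⟩
    · rw [← add_zero (f n v), ← e, add_comm v, ← add_assoc, n_two, zero_add]
    rcases Nat.lt_succ_iff_lt_or_eq.1 hi with d | rfl
    · rw [ha, hc, b i d]
    · rw [ha, h2, add_comm]
universe u
variable {G : Type u} [Group G]
namespace CW
variable {z b : G} {R : Subgroup G} {π : Cz z →* AL M} {P : M → G → Prop} (h : CW z R π P b) [Finite G]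
include h
theorem r4 {x : G} (hx : x ∈ R) : x ^ 4 = 1 := by
  rw [show 4 = 2 * 2 from rfl, pow_mul, pow_two x]; rcases h.sq hx with e | e <;> rw [e]
  exacts [one_pow _, (pow_two z).trans h.zz]
theorem mem_of {k : Cz z} (a : ∀ i, π k (pe i, 0) = (pe i, 0)) (c : ∀ i, π k (0, pe i) = (0, pe i)) : (k : G) ∈ R :=
  (h.ker k).1 (LinearEquiv.ext (ext2 (f := (π k).toAddEquiv) (g := .refl M) a c))
theorem lift {σ τ : Perm (Fin 5)} (h1 : σ ^ 3 = 1) (h2 : τ ^ 3 = 1) (e : Perm.sign σ = Perm.sign τ) : ∃ k : Cz z, (k : G) ^ 3 = 1 ∧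
    (∀ i, π k (pe i, 0) = (pe (σ i), 0)) ∧ ∀ i, π k (0, pe i) = (0, pe (τ i)) := by
  obtain ⟨k, a, c⟩ := (h.om.perm σ τ).2 e
  have m : ((k ^ 3 : Cz z) : G) ∈ R := h.mem_of
    (fun i => by rw [pow_three, map_mul, map_mul]; change π k (π k (π k _)) = _; rw [a, a, a]; exact congrArg (fun g : Perm _ => (pe (g i), 0)) ((pow_three σ).symm.trans h1))
    fun i => by rw [pow_three, map_mul, map_mul]; change π k (π k (π k _)) = _; rw [c, c, c]; exact congrArg (fun g : Perm _ => (0, pe (g i))) ((pow_three τ).symm.trans h2)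
  refine ⟨k * k ^ 3, ?_, by rwa [map_mul, (h.ker _).2 m, mul_one], by rwa [map_mul, (h.ker _).2 m, mul_one]⟩
  rw [← pow_succ', coe_pow, ← pow_mul, mul_comm, pow_mul]; exact h.r4 m
theorem in1_of {k : Cz z} (a : (k : G) ^ 3 = 1) (c : ∀ i, π k (0, pe i) = (0, pe i)) : In1 P k := fun v _ d =>
  h.fixP k.2 a (by decide) d (span_ind (fun w => π k (0, w) = (0, w)) (fun x y i j => by rw [mk2, map_add, i, j]) c v)
theorem in2_of' {k : Cz z} (a : (k : G) ^ 3 = 1) (c : ∀ i, π k (pe i, 0) = (pe i, 0)) : In2 P k := fun v _ d =>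
  h.fixP k.2 a (by decide) d (span_ind (fun w => π k (w, 0) = (w, 0)) (fun x y i j => by rw [mk1, map_add, i, j]) c v)
theorem bpow (i j : Fin 5) : π (⟨b, h.hb⟩ ^ i.val) (pe j, 0) = (pe (j + i), 0) := by
  have e : ∀ i : Fin 5, i.val • (1 : Fin 5) = i := by decide
  rw [act_pow (i := 1) fun j => by rw [h.ab, (pe_q j).2.2], e]
theorem dec {k : Cz z} (c : Commute (k : G) b) (a : ∀ i, π k (0, pe i) = (0, pe i)) : ∃ n : ℕ, (b ^ n)⁻¹ * k ∈ R := by
  obtain ⟨i, d⟩ := h.act1 c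
  refine ⟨i, h.mem_of (k := (⟨b, h.hb⟩ ^ i.val)⁻¹ * k) (fun j => ?_) fun j => ?_⟩
  · rw [map_mul, map_inv]; change (π _).symm (π k _) = _; rw [d, LinearEquiv.symm_apply_eq, h.bpow]
  · rw [map_mul, map_inv]; change (π _).symm (π k _) = _
    rw [a, LinearEquiv.symm_apply_eq]; exact (h.f1 (fun v x e => (h.b1 v x e).pow_left i) (pow_mem h.hb _) _).symm
theorem c3 {k : G} (c : Commute k b) (a : In1 P k) : k ∈ zpowers b ∨ k * z ∈ zpowers b := by
  obtain ⟨n, d⟩ := h.dec (k := ⟨k, h.cz1 a⟩) c fun i => h.f1 a _ _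
  obtain ⟨v, e⟩ := h.ex' _ d
  rcases (h.iff e).2 (Prod.ext ((h.mem2 e).1 (((Commute.refl b).pow_right n).inv_right.mul_right c.symm))
    ((h.in1 e).1 fun v x e => ((h.b1 v x e).pow_left n).inv_left.mul_left (a v x e))) with u | u
  · exact .inl ((inv_mul_eq_one.1 u : b ^ n = k) ▸ pow_mem (mem_zpowers b) n)
  · exact .inr (by rw [(inv_mul_eq_iff_eq_mul.1 u : k = _), mul_assoc, h.zz, mul_one]; exact pow_mem (mem_zpowers b) n)
theorem conj_mem {t : G} {R' : Subgroup G} {π' : Cz t →* AL M} {P' : M → G → Prop} (h' : CW t R' π' P' b) (ht : t ∈ Cz z) : t ∈ R := by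
  have o12 : ∀ x : G, x * x = 1 → x ^ 12 = 1 := fun x a => by rw [show 12 = 2 * 6 from rfl, pow_mul, pow_two, a, one_pow]
  have It := h.in2_12 ht (mem_Cz.1 h'.hb).symm (o12 t h'.zz)
  have Iz := h'.in2_12 (mem_Cz.2 (mem_Cz.1 ht).symm) (mem_Cz.1 h.hb).symm (o12 z h.zz)
  set τ : Cz z := ⟨t, ht⟩
  set β : Cz z := ⟨b, h.hb⟩
  have ap : ∀ x y v, π (x * y) v = π x (π y v) := fun x y v => by rw [map_mul]; rfl
  have tt : ∀ v, π τ (π τ v) = v := fun v => by rw [← ap, show τ * τ = 1 from Subtype.ext h'.zz, map_one]; rfl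
  choose f hf using h.om.pent2 (h.g2 It ht)
  have fi : Function.Involutive f := fun i => pe_inj (congrArg Prod.snd (by rw [← hf, ← hf, tt] : ((0, pe (f (f i))) : M) = (0, pe i)))
  rcases dbl fi.toPerm (Equiv.ext fi) ((h.om.perm 1 fi.toPerm).1 ⟨τ, fun i => h.f2 It ht _, hf⟩).symm with e | ⟨i, j, qa, sp⟩
  · exact h.mem_of (k := τ) (fun i => h.f2 It ht _) fun i => (hf i).trans (congrArg (fun g : Perm _ => (0, pe (g i))) e)
  exfalso
  obtain ⟨A, hA⟩ : ∃ A : Cz z → Prop, ∀ x, A x ↔ ∃ v, P' (v, 0) x := ⟨_, fun _ => Iff.rfl⟩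
  have Ae : ∀ v, ∃ x, A x ∧ P' (v, 0) x := fun v => let ⟨x, a⟩ := h'.ex (v, 0); ⟨⟨x, mem_Cz.2 (Iz v x a).symm⟩, (hA _).2 ⟨v, a⟩, a⟩
  have Ar : ∀ x, A x → (x : G) ∈ R' := fun x a => let ⟨_, c⟩ := (hA x).1 a; h'.mem c
  have At : A τ := (hA _).2 ⟨0, h'.zero.2⟩
  have Am : ∀ x y, A x → A y → A (x * y) := fun x y a c => let ⟨v, a⟩ := (hA x).1 a; let ⟨w, c⟩ := (hA y).1 c
    (hA _).2 ⟨v + w, mk1 v w ▸ h'.mul a c⟩
  have Ab : ∀ x, A x → A (β * x * β⁻¹) := fun x a => let ⟨v, a⟩ := (hA x).1 a; (hA _).2 ⟨bt v, h'.ab v 0 ▸ h'.act' h'.hb a⟩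
  have sq : ∀ x, A x → x * x = 1 ∨ x * x = τ := fun x a => (h'.sq (Ar x a)).imp Subtype.ext Subtype.ext
  obtain ⟨n, hn⟩ : ∃ n : M → M, ∀ v, n v = π τ v + v := ⟨_, fun _ => rfl⟩
  have na : ∀ u v, n (u + v) = n u + n v := fun u v => by rw [hn, hn, hn, map_add]; abel
  have n1 : ∀ v, (n v).1 = 0 := fun v => by
    rw [mk12 v, na, hn, hn, h.f2 It ht, qf0.two, zero_add, Prod.fst_add, h.g2 It ht]; simp
  have bn : ∀ v, π β (n v) = n v := fun v => (h.ab _ _).trans (Prod.ext (by rw [n1]; exact bt_z) rfl)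
  have tn : ∀ v, π τ (n v) = n v := fun v => by rw [hn, map_add, tt, add_comm]
  have cn : ∀ x, A x → ∀ v, π x (n v) = n (π x v) := fun x a v => by
    rw [hn, hn, map_add, ← ap, ← ap, show x * τ = τ * x from Subtype.ext (h'.comm (Ar x a))]
  have s1 : ∀ x, A x → ∀ v, π x (n v) = n v := fun x a v => by
    obtain ⟨w, a⟩ := (hA x).1 a
    obtain ⟨w, rfl⟩ := bt_sur w
    obtain ⟨y, c, d⟩ := Ae w
    have : π (y * (β * y * β⁻¹)) (n v) = n v := by
      rw [ap, ap, ap, show π β⁻¹ (n v) = n v by rw [map_inv]; exact (LinearEquiv.symm_apply_eq _).2 (bn v).symm, cn y c, bn, ← cn y c, ← ap]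
      rcases sq y c with e | e <;> rw [e]
      exacts [by rw [map_one]; rfl, tn v]
    rcases (h'.uniq (h'.mul d (h'.ab w 0 ▸ h'.act' h'.hb d)) a).2 (mk1 _ _).symm with e | e
    · rwa [show x = y * (β * y * β⁻¹) from Subtype.ext e]
    · rw [show x = y * (β * y * β⁻¹) * τ from Subtype.ext e, ap, tn, this]
  have np : ∀ i, n (0, pe i) = (0, pe (f i) + pe i) := fun i => by rw [hn, hf, mk2]
  have s2 : ∀ x y, A x → A y → ∀ v, π y (0, (π x v + v).2) = (0, (π x v + v).2) := fun x y a c v => by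
    have p : ∀ i, b4 (π x v + v).2 (pe (f i) + pe i) = 0 := fun i => by
      have := (qf0.add (π x v) v (n (0, pe i))).trans (by
        rw [← h.om.pol x v, s1 x a, z2_two])
      rwa [np, pol0, b4_z, zero_add] at this
    rcases sp _ (p i) (p j) with e | e | e | e <;> rw [e]
    exacts [map_zero _, np i ▸ s1 y c _, np j ▸ s1 y c _, by
      have := s1 y c ((0, pe i) + (0, pe j)); rwa [na, np, np, ← mk2] at this]
  obtain ⟨μ, hμ⟩ : ∃ μ : Cz z → N → N, ∀ x v, μ x v = (π x (v, 0)).1 := ⟨_, fun _ _ => rfl⟩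
  have mm : ∀ x y, A x → A y → ∀ v, μ (x * y) v = μ x (μ y v) := fun x y a c v => by
    have := s2 y x c a (v, 0)
    rw [Prod.snd_add, add_zero] at this
    rw [hμ, hμ, hμ, ap, mk12 (π y _), map_add, this]; simp
  have mt : ∀ v, μ τ v = v := fun v => by rw [hμ, h.f2 It ht]
  have mb : ∀ x v, μ (β * x * β⁻¹) (bt v) = bt (μ x v) := fun x v => by
    rw [hμ, hμ, ← h.ab, ← ap, inv_mul_cancel_right, ap]; exact congrArg Prod.fst (h.ab _ _)
  have ma : ∀ x u v, μ x (u + v) = μ x u + μ x v := fun x u v => by rw [hμ, hμ, hμ, mk1, map_add]; rfl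
  obtain ⟨x, a, c⟩ := Ae (pe 0 + pe 1)
  have xx : x * x = τ := (sq x a).resolve_left fun e => absurd ((h'.sq' c).1 (congrArg Subtype.val e)) (by decide)
  have xs : ∀ i : ℕ, β ^ (i + 1) * x * (β ^ (i + 1))⁻¹ = β * (β ^ i * x * (β ^ i)⁻¹) * β⁻¹ := fun i => by group
  have xa : ∀ i : ℕ, A (β ^ i * x * (β ^ i)⁻¹) := fun i => by
    induction i with
    | zero => simpa using a
    | succ i ih => rw [xs]; exact Ab _ ih
  obtain ⟨v, v0, fv⟩ := comfix (fun i => μ (β ^ i * x * (β ^ i)⁻¹)) (fun i => ma _) (fun i v => by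
      rw [← mm _ _ (xa i) (xa i)]
      rcases sq _ (xa i) with e | e <;> rw [e]
      exacts [by rw [hμ, map_one]; rfl, mt v]) (fun i j v => by
      rw [← mm _ _ (xa i) (xa j), ← mm _ _ (xa j) (xa i)]
      rcases h'.com (Ar _ (xa i)) (Ar _ (xa j)) with e | e
      · exact congrArg (μ · v) (Subtype.ext e)
      · rw [← mt v, ← mm _ _ (Am _ _ (xa j) (xa i)) At, mt]; exact congrArg (μ · v) (Subtype.ext e)) 5
  have fb : ∀ m i, i < 5 → μ (β ^ i * x * (β ^ i)⁻¹) (bt^[m] v) = bt^[m] v := fun m => by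
    induction m with
    | zero => exact fv
    | succ m ih =>
      have : ∀ i < 5, μ (β ^ (i + 1) * x * (β ^ (i + 1))⁻¹) (bt^[m + 1] v) = bt^[m + 1] v := fun i hi => by
        rw [xs, Function.iterate_succ_apply', mb, ih i hi]
      rintro (_ | i) hi
      · have e : β ^ (4 + 1) = β ^ 0 := Subtype.ext (h.bb.trans (pow_zero b).symm)
        exact e ▸ this 4 (by norm_num)
      · exact this i (by omega)
  have fx : ∀ w, μ x w = w := fun w => by
    have : ∀ m, μ x (bt^[m] v) = bt^[m] v := fun m => by simpa using fb m 0 (by norm_num)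
    obtain ⟨i, j, e | e⟩ := irr v v0 w <;> rw [e]
    exacts [by rw [ma, this, this], this _]
  obtain ⟨w, hw⟩ : ∃ w, w = π x (0, pe i) + (0, pe i) := ⟨_, rfl⟩
  have e1 : n (0, pe i) = π x (w.1, 0) + (w.1, 0) := by
    have := s2 x x a a (0, pe i)
    rw [← hw] at this
    have e : π x w + w = π x (w.1, 0) + (w.1, 0) := by
      conv_lhs => rw [mk12 w, map_add, this, add_add_add_comm, qf0.two, add_zero]
    rw [← e, hn, ← xx, ap, hw, map_add, add_assoc, ← add_assoc (π x (0, pe i)), qf0.two, zero_add]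
  have e2 := h.om.iso x (w.1, 0)
  rw [q0, q0, ← hμ, fx, q4_z, add_right_inj] at e2
  have e3 := congrArg Prod.snd e1
  rw [np, Prod.snd_add, add_zero] at e3
  exact one_ne_zero (qa.symm.trans ((congrArg q4 e3).trans e2))
end CW
end
end H4.Hc
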