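import Cfsg.Agent.H29.SL5
import Cfsg.Agent.H29.LM
import Cfsg.Agent.H28.Pkg2
/-! Codes for the centralizer of a transvection of `SL(5,2)`, and frames: groups with such an involution centralizer. -/
set_option autoImplicit false
set_option maxRecDepth 100000
namespace H4.Hd
open H29 (force force_eq allL allL_spec anyL anyL_iff band band_iff a2_5 a2_5_mul code codeOK decode)
open H27 (cl mem_cl cl_le)
open H28 (ev ev_cons ev_nil Rels)
noncomputable section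
attribute [local irreducible] code
set_option linter.style.haveILetI false

abbrev Mt := Matrix (Fin 5) (Fin 5) (ZMod 2)
abbrev SL := Matrix.SpecialLinearGroup (Fin 5) (ZMod 2)
def bor (a b : Bool) : Bool := Bool.rec (motive := fun _ => Bool) b true a
def bnot (a : Bool) : Bool := Bool.rec (motive := fun _ => Bool) true false a
def cnd {α : Type} (c : Bool) (a b : α) : α := Bool.rec (motive := fun _ => α) b a c
def imp (a b : Bool) : Bool := Bool.rec (motive := fun _ => Bool) true b a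
@[simp] theorem bor_iff {a b : Bool} : bor a b = true ↔ a = true ∨ b = true := by cases a <;> simp [bor]
@[simp] theorem bnot_iff {a : Bool} : bnot a = true ↔ ¬ a = true := by cases a <;> simp [bnot]
@[simp] theorem imp_iff {a b : Bool} : imp a b = true ↔ (a = true → b = true) := by cases a <;> simp [imp]
theorem cnd_eq {α : Type} (c : Bool) (a b : α) : cnd c a b = if c = true then a else b := by cases c <;> simp [cnd]
theorem allL_iff {f : ℕ → Bool} {l : List ℕ} : allL f l = true ↔ ∀ a ∈ l, f a = true := by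
  refine ⟨allL_spec, fun h => ?_⟩
  induction l with
  | nil => rfl
  | cons a l ih =>
    change Bool.rec (motive := fun _ => Bool) false (allL f l) (f a) = true
    rw [h a List.mem_cons_self]; exact ih fun b hb => h b (List.mem_cons_of_mem _ hb)
attribute [simp] band_iff anyL_iff allL_iff
def mem (a : ℕ) (l : List ℕ) : Bool := anyL (fun b => Nat.beq a b) l
@[simp] theorem mem_iff {a : ℕ} {l : List ℕ} : mem a l = true ↔ a ∈ l := by simp [mem]
def tb (a p : ℕ) : Bool := Nat.beq (Nat.land (Nat.shiftRight a p) 1) 1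

def mu (a b : ℕ) : ℕ := force a fun x => force b fun y => a2_5_mul x y
def o : ℕ := 0x1041041
def cz : ℕ := 0x1041061
def sq (a : ℕ) : ℕ := force a fun x => a2_5_mul x x
def iv (a : ℕ) : ℕ := force a fun x => force (sq x) fun x2 => force (sq x2) fun x4 => force (sq (sq (sq x4))) fun x32 =>
  mu (mu (sq (sq x32)) x32) (mu x4 (mu x2 x))
def cm (a b : ℕ) : Bool := Nat.beq (mu a b) (mu b a)
def vb (a : ℕ) : Bool := band (Nat.blt a 0x2000000) (band (Nat.beq (mu a (iv a)) o) (cm a cz))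
theorem a25m : a2_5.mul = a2_5_mul := rfl
theorem a25w : a2_5.w = 1 := rfl
theorem mu_eq (a b : ℕ) : mu a b = a2_5_mul a b := by unfold mu; rw [force_eq, force_eq]
theorem mu_code (A B : Mt) : mu (code 1 A) (code 1 B) = code 1 (A * B) := by
  have := a2_5.mul_eq A B
  rw [a25m, a25w] at this
  rw [mu_eq, this]
theorem sq_eq (a : ℕ) : sq a = mu a a := by rw [mu_eq]; unfold sq; rw [force_eq]
theorem o_code : o = code 1 (1 : Mt) := by
  have := a2_5.one_eq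
  rw [a25w] at this
  rw [← this]; rfl
theorem code_inj' {A B : Mt} (h : code 1 A = code 1 B) : A = B := H29.code_inj (by norm_num) h
theorem iv_eq (x : ℕ) : iv x = mu (mu (sq (sq (sq (sq (sq (sq (sq x))))))) (sq (sq (sq (sq (sq x))))))
    (mu (sq (sq x)) (mu (sq x) x)) := by
  unfold iv; rw [force_eq, force_eq, force_eq, force_eq]
theorem iv_code (A : Mt) : iv (code 1 A) = code 1 (A ^ 167) := by
  have h : ∀ (B : Mt), sq (code 1 B) = code 1 (B ^ 2) := fun B => by rw [sq_eq, mu_code, pow_two]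
  rw [iv_eq]
  simp only [h, mu_code, ← pow_mul, ← pow_add, ← pow_succ]
theorem code_dec {c : ℕ} (h : c < 2 ^ (1 * (5 * 5))) : code 1 (decode 2 5 1 c) = c := by
  conv_rhs => rw [← H29.pk_pget one_pos h]
  rw [code, H29.matN_flat]
  refine H29.pk_congr fun t ht => ?_
  rw [show H29.ent (decode 2 5 1 c) (t % 5) (t / 5) = _ from
    H29.ent_fin _ ⟨t % 5, Nat.mod_lt _ (by norm_num)⟩ ⟨t / 5, Nat.div_lt_of_lt_mul ht⟩]
  simp only [decode, Matrix.of_apply, Nat.div_add_mod]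
  exact ZMod.val_cast_of_lt (Nat.and_le_right.trans_lt (by norm_num))
def s0 : SL := ⟨Matrix.transvection 0 1 1, Matrix.det_transvection_of_ne 0 1 (by decide) 1⟩
def cd (A : SL) : ℕ := code 1 A.1
theorem cz_code : cz = cd s0 := H29.code_eq_chk _ one_pos (by decide +kernel)
theorem mu_cd (A B : SL) : mu (cd A) (cd B) = cd (A * B) := by
  unfold cd; rw [mu_code]; exact congrArg (code 1) (Matrix.SpecialLinearGroup.coe_mul A B).symm
theorem iv_cd (A : SL) : iv (cd A) = cd (A ^ 167) := by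
  unfold cd; rw [iv_code]; exact congrArg (code 1) (Matrix.SpecialLinearGroup.coe_pow A 167).symm
theorem o_cd : o = cd 1 := o_code
theorem cd_inj {A B : SL} (h : cd A = cd B) : A = B := Subtype.ext (code_inj' h)
@[simp] theorem cm_iff {a b : ℕ} : cm a b = true ↔ mu a b = mu b a := by simp [cm]

/-- valid codes -/
def V (a : ℕ) : Prop := ∃ A : SL, A * s0 = s0 * A ∧ cd A = a
theorem V.of_vb {a : ℕ} (h : vb a = true) : V a := by
  simp only [vb, band_iff, Nat.beq_eq, cm_iff, Nat.blt_eq] at h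
  obtain ⟨h1, h2, h3⟩ := h
  have e := code_dec (c := a) (h1.trans_le (by norm_num))
  generalize decode 2 5 1 a = M at e
  subst e
  rw [iv_code, mu_code, o_code] at h2
  have hd : M.det = 1 := by
    have := congrArg Matrix.det (code_inj' h2)
    rw [Matrix.det_mul, Matrix.det_one] at this
    generalize M.det = x at *
    generalize (M ^ 167).det = y at *
    clear h1 h2 h3
    revert x y; decide
  let A : SL := ⟨M, hd⟩
  have e : code 1 M = cd A := rfl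
  rw [e, cz_code, mu_cd, mu_cd] at h3
  exact ⟨A, cd_inj h3, e.symm⟩
theorem V.mu {a b : ℕ} (ha : V a) (hb : V b) : V (mu a b) := by
  obtain ⟨A, h1, rfl⟩ := ha
  obtain ⟨B, h2, rfl⟩ := hb
  exact ⟨A * B, by rw [mul_assoc, h2, ← mul_assoc, h1, mul_assoc], (mu_cd _ _).symm⟩
theorem V.o : V o := ⟨1, by simp, o_cd.symm⟩
theorem V.cz : V cz := ⟨s0, rfl, cz_code.symm⟩
theorem V.iv {a : ℕ} (ha : V a) : V (iv a) := by
  obtain ⟨A, h1, rfl⟩ := ha
  exact ⟨A ^ 167, (Commute.pow_left h1 167).eq, (iv_cd _).symm⟩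
theorem V.cm_cz {a : ℕ} (ha : V a) : H4.Hd.mu a H4.Hd.cz = H4.Hd.mu H4.Hd.cz a := by
  obtain ⟨A, h1, rfl⟩ := ha
  rw [cz_code, mu_cd, mu_cd, h1]
theorem V.all {l : List ℕ} (h : allL vb l = true) : ∀ a ∈ l, V a := fun a ha => V.of_vb (allL_spec h a ha)

def Lb : List ℕ := [0x1041041, 0x1061041, 0x1043041, 0x1841041, 0x10c1041, 0x1023041, 0x1861041, 0x10e1041, 0x1062041, 0x1843041, 0x10c7041, 0x1c61041, 0x8c1041, 0x10c3041, 0x1881041, 0x1022041, 0x1823041, 0x1027041, 0x1c41041, 0x8e1041, 0x10a3041, 0x18a1041, 0x1862041, 0x10e6041, 0x1c62041, 0x8c7041, 0x10c5041, 0x1885041, 0x1423041, 0x1461041, 0xce1041, 0x8c3041, 0x881041, 0x10e2041, 0x1883041, 0x1047041, 0x1c81041, 0x1822041, 0x1026041, 0x1c22041, 0x827041, 0x1065041, 0x1825041, 0x1443041, 0x1441041, 0xcc1041, 0x8a3041, 0x8a1041, 0x10a2041, 0x18e3041, 0x10a7041, 0x1ca1041, 0x1c43041, 0x8e6041, 0x10a6041, 0x18a4041, 0x1422041, 0x1462041, 0xce6041,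 0x8c5041, 0x885041, 0x10e5041, 0x1887041, 0x1045041, 0x1c85041, 0x1c23041, 0x1427041, 0x14e1041, 0x4a3041, 0xca1041, 0xce2041, 0x883041, 0x1847041, 0xc81041, 0x18a2041, 0x1066041, 0x1c82041, 0x887041, 0x1845041, 0x1483041, 0x14c1041, 0x826041, 0x1824041, 0xc26041, 0x865041, 0x825041, 0x1867041, 0x1c25041, 0x14c7041, 0x4c3041, 0xca2041, 0x8e3041, 0x18a7041, 0x18e2041, 0x1cc2041, 0x867041, 0x18e5041, 0x14e3041, 0xcc7041, 0x8a6041, 0x8a4041, 0x18e4041, 0x1ca4041, 0x1426041, 0x14e6041, 0x4a6041, 0xca4041, 0xce5041, 0xc85041, 0x1c86041, 0x1487041, 0xc27041, 0x1c65041, 0x1ca3041, 0x4a2041, 0x4e3041, 0x4a7041, 0x1c66041, 0xc82041, 0x483041, 0x1864041, 0x1482041, 0x14c2041, 0xc86041, 0x1cc3041, 0x866041, 0x824041, 0x1c24041, 0x466041, 0xc24041, 0xc45041, 0xc25041, 0x1c46041, 0x1467041, 0x1cc5041, 0x4e2041, 0x447041, 0x1ca6041, 0xcc2041, 0xc46041, 0x4c5041, 0xca7041, 0x8e4041, 0x1cc4041, 0x864041, 0x14e4041,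 0x4e4041, 0x487041, 0x1486041, 0x14c4041, 0x465041, 0x4c2041, 0x467041, 0x4e5041, 0x1464041, 0x482041, 0x1c44041, 0x1446041, 0x486041, 0xcc4041, 0xc47041, 0x464041, 0x1444041, 0x445041, 0x446041, 0xc44041, 0x4c4041, 0x444041]
def Lq : List ℕ := [0x0, 0x400, 0x8000, 0x8400, 0x100000, 0x100400, 0x108000, 0x108400, 0x20, 0x420, 0x8020, 0x8420, 0x100020, 0x100420, 0x108020, 0x108420, 0x80, 0x480, 0x8080, 0x8480, 0x100080, 0x100480, 0x108080, 0x108480, 0xa0, 0x4a0, 0x80a0, 0x84a0, 0x1000a0, 0x1004a0, 0x1080a0, 0x1084a0, 0x100, 0x500, 0x8100, 0x8500, 0x100100, 0x100500, 0x108100, 0x108500, 0x120, 0x520, 0x8120, 0x8520, 0x100120, 0x100520, 0x108120, 0x108520, 0x180, 0x580, 0x8180, 0x8580, 0x100180, 0x100580, 0x108180, 0x108580, 0x1a0, 0x5a0, 0x81a0, 0x85a0, 0x1001a0, 0x1005a0, 0x1081a0, 0x1085a0, 0x200, 0x600, 0x8200, 0x8600, 0x100200, 0x100600, 0x108200, 0x108600, 0x220, 0x620, 0x8220, 0x8620, 0x100220,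 0x100620, 0x108220, 0x108620, 0x280, 0x680, 0x8280, 0x8680, 0x100280, 0x100680, 0x108280, 0x108680, 0x2a0, 0x6a0, 0x82a0, 0x86a0, 0x1002a0, 0x1006a0, 0x1082a0, 0x1086a0, 0x300, 0x700, 0x8300, 0x8700, 0x100300, 0x100700, 0x108300, 0x108700, 0x320, 0x720, 0x8320, 0x8720, 0x100320, 0x100720, 0x108320, 0x108720, 0x380, 0x780, 0x8380, 0x8780, 0x100380, 0x100780, 0x108380, 0x108780, 0x3a0, 0x7a0, 0x83a0, 0x87a0, 0x1003a0, 0x1007a0, 0x1083a0, 0x1087a0]
def allH (p : ℕ → Bool) : Bool := allL (fun b => allL (fun q => force (Nat.xor b q) p) Lq) Lb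
theorem allH_iff {p : ℕ → Bool} : allH p = true ↔ ∀ b ∈ Lb, ∀ q ∈ Lq, p (b ^^^ q) = true := by
  simp only [allH, allL_iff, force_eq]; rfl
theorem allH_vb : allH vb = true := by decide +kernel
theorem allH_dec : allL (fun b => allL (fun q => band (Nat.beq (Nat.land (Nat.xor b q) 0x1ef785f) b)
    (Nat.beq (Nat.land (Nat.xor b q) 0x1087a0) q)) Lq) Lb = true := by decide +kernel
theorem cover {a : ℕ} (ha : V a) : ∃ b ∈ Lb, ∃ q ∈ Lq, a = b ^^^ q := by
  classical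
  let C := Subgroup.centralizer ({s0} : Set SL)
  haveI : Fintype C := Fintype.ofFinite _
  have hc : Nat.card C = 21504 := (H29.sl5_s (s := s0) rfl).2.2
  let S : Finset ℕ := Finset.univ.image fun A : C => cd A.1
  let L : List ℕ := (Lb ×ˢ Lq).map fun p => p.1 ^^^ p.2
  have hd := allH_dec
  simp only [allL_iff, band_iff, Nat.beq_eq] at hd
  have nd : L.Nodup := by
    refine List.Nodup.map_on ?_ (List.Nodup.product (by decide +kernel) (by decide +kernel))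
    rintro ⟨b, q⟩ h1 ⟨b', q'⟩ h2 e
    rw [List.mem_product] at h1 h2
    obtain ⟨a1, a2⟩ := hd b h1.1 q h1.2
    obtain ⟨a3, a4⟩ := hd b' h2.1 q' h2.2
    change Nat.xor b q = Nat.xor b' q' at e
    rw [e] at a1 a2
    exact Prod.ext (a1.symm.trans a3) (a2.symm.trans a4)
  have sub : L.toFinset ⊆ S := fun x hx => by
    obtain ⟨⟨b, q⟩, h1, rfl⟩ := List.mem_map.1 (List.mem_toFinset.1 hx)
    rw [List.mem_product] at h1
    obtain ⟨A, h2, h3⟩ := V.of_vb (allH_iff.1 allH_vb b h1.1 q h1.2)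
    exact Finset.mem_image.2 ⟨⟨A, Subgroup.mem_centralizer_singleton_iff.2 h2⟩, Finset.mem_univ _, h3⟩
  have eq : L.toFinset = S := Finset.eq_of_subset_of_card_le sub (by
    rw [List.toFinset_card_of_nodup nd, List.length_map, List.length_product]
    refine Finset.card_image_le.trans ?_
    rw [Finset.card_univ, ← Nat.card_eq_fintype_card, hc]; decide +kernel)
  obtain ⟨A, h1, rfl⟩ := ha
  have : cd A ∈ L.toFinset :=
    eq ▸ Finset.mem_image.2 ⟨⟨A, Subgroup.mem_centralizer_singleton_iff.2 h1⟩, Finset.mem_univ _, rfl⟩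
  obtain ⟨⟨b, q⟩, h1, h2⟩ := List.mem_map.1 (List.mem_toFinset.1 this)
  rw [List.mem_product] at h1
  exact ⟨b, h1.1, q, h1.2, h2.symm⟩
theorem allH_spec {p : ℕ → Bool} (h : allH p = true) {a : ℕ} (ha : V a) : p a = true := by
  obtain ⟨b, hb, q, hq, rfl⟩ := cover ha
  exact allH_iff.1 h b hb q hq
theorem V.mu_iv {a : ℕ} (ha : V a) : H4.Hd.mu a (H4.Hd.iv a) = H4.Hd.o := by
  have := allH_spec allH_vb ha
  simp only [vb, band_iff, Nat.beq_eq] at this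
  exact this.2.1

/-- products along the bits of `a` -/
def app (L : List (ℕ × ℕ)) (a : ℕ) : ℕ → ℕ :=
  List.rec (motive := fun _ => ℕ → ℕ) (fun c => c) (fun x _ ih c => cnd (tb a x.1) (force (mu c x.2) ih) (ih c)) L
theorem app_cons (x : ℕ × ℕ) (L : List (ℕ × ℕ)) (a c : ℕ) :
    app (x :: L) a c = if tb a x.1 = true then app L a (mu c x.2) else app L a c := by
  rw [← cnd_eq, ← force_eq (mu c x.2) (app L a)]; rfl
theorem app_ind {P : ℕ → Prop} (hm : ∀ a b, P a → P b → P (mu a b)) {L : List (ℕ × ℕ)} (hL : ∀ x ∈ L, P x.2) (a : ℕ)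
    {c : ℕ} (hc : P c) : P (app L a c) := by
  induction L generalizing c with
  | nil => exact hc
  | cons x L ih =>
    have ih := @ih fun y hy => hL y (List.mem_cons_of_mem _ hy)
    rw [app_cons]; split_ifs
    · exact ih (hm _ _ hc (hL x List.mem_cons_self))
    · exact ih hc
/-- value of a word -/
def evc (L : List ℕ) (w : List ℕ) : ℕ :=
  List.rec (motive := fun _ => ℕ) o (fun g _ ih => mu (H29.lgetD o L g) ih) w
theorem evc_cons (L : List ℕ) (g : ℕ) (w : List ℕ) : evc L (g :: w) = mu (L.getD g o) (evc L w) := by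
  rw [← H29.lgetD_eq]; rfl
theorem getD_ind {P : ℕ → Prop} (h1 : P o) {L : List ℕ} (hL : ∀ x ∈ L, P x) (g : ℕ) : P (L.getD g o) := by
  rw [List.getD_eq_getElem?_getD]
  cases h : L[g]? with
  | none => exact h1
  | some x => exact hL x (List.mem_of_getElem? h)
theorem evc_ind {P : ℕ → Prop} (hm : ∀ a b, P a → P b → P (mu a b)) (h1 : P o) {L : List ℕ} (hL : ∀ x ∈ L, P x)
    (w : List ℕ) : P (evc L w) := by
  induction w with
  | nil => exact h1
  | cons g w ih => rw [evc_cons]; exact hm _ _ (getD_ind h1 hL g) ih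
/-- the generators `x12, x23, x32, x34, x43, x45` -/
def Gn : List ℕ := [0x1041441, 0x1061041, 0x1043041, 0x1841041, 0x10c1041, 0x1041241]
def LQ : List (ℕ × ℕ) := [(7, 0x10410c1), (8, 0x1041141), (9, 0x1041241), (10, 0x1041441), (15, 0x1049041), (20, 0x1141041), (5, 0x1041061)]
theorem Gn_V : ∀ a ∈ Gn, V a := V.all (by decide +kernel)
theorem gen_b : ([[], [1], [2], [3], [4], [2, 1], [3, 1], [4, 1], [1, 2], [3, 2], [4, 2], [1, 3], [4, 3], [2, 4], [3, 4], [1, 2, 1], [3, 2, 1], [4, 2, 1], [1, 3, 1], [4, 3, 1], [2, 4, 1], [3, 4, 1], [3, 1, 2], [4, 1, 2], [1, 3, 2], [4, 3, 2], [2, 4, 2], [3, 4, 2], [2, 1, 3], [3, 1, 3], [4, 1, 3], [2, 4, 3], [3, 4, 3], [1, 2, 4], [3, 2, 4], [4, 2, 4], [1, 3, 4], [3, 1, 2, 1], [4, 1, 2, 1], [1, 3, 2, 1], [4, 3, 2, 1], [2, 4, 2, 1], [3, 4, 2, 1], [2, 1, 3, 1], [3, 1, 3, 1], [4, 1, 3, 1], [2, 4, 3, 1], [3, 4, 3, 1], [1, 2, 4, 1], [3, 2, 4, 1], [4, 2, 4, 1], [1, 3, 4, 1],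 [1, 3, 1, 2], [4, 3, 1, 2], [2, 4, 1, 2], [3, 4, 1, 2], [2, 1, 3, 2], [3, 1, 3, 2], [4, 1, 3, 2], [2, 4, 3, 2], [3, 4, 3, 2], [1, 2, 4, 2], [3, 2, 4, 2], [4, 2, 4, 2], [1, 3, 4, 2], [3, 2, 1, 3], [4, 2, 1, 3], [4, 3, 1, 3], [2, 4, 1, 3], [3, 4, 1, 3], [1, 2, 4, 3], [3, 2, 4, 3], [4, 2, 4, 3], [1, 3, 4, 3], [3, 1, 2, 4], [4, 1, 2, 4], [1, 3, 2, 4], [4, 3, 2, 4], [3, 4, 2, 4], [2, 1, 3, 4], [3, 1, 3, 4], [4, 3, 1, 2, 1], [3, 4, 1, 2, 1], [4, 1, 3, 2, 1], [2, 4, 3, 2, 1], [3, 4, 3, 2, 1], [3, 2, 4, 2, 1], [1, 3, 4, 2, 1], [4, 2, 1, 3, 1], [2, 4, 1, 3, 1], [1, 2, 4, 3, 1], [3, 2, 4, 3, 1], [4, 2, 4, 3, 1], [3, 1, 2, 4, 1], [1, 3, 2, 4, 1], [4, 3, 2, 4, 1], [3, 4, 2, 4, 1], [2, 1, 3, 4, 1], [4, 1, 3, 1, 2], [2, 4, 3, 1, 2], [3, 4, 3, 1, 2], [3, 2, 4, 1, 2], [1, 3, 4, 1, 2], [4, 2, 1, 3, 2], [4, 3, 1, 3, 2], [2, 4, 1, 3, 2], [3, 4, 1, 3, 2], [1, 2, 4, 3, 2], [1, 3, 4, 3, 2], [1, 3, 2, 4, 2], [2, 1, 3,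 4, 2], [4, 3, 2, 1, 3], [2, 4, 2, 1, 3], [2, 4, 3, 1, 3], [1, 2, 4, 1, 3], [3, 2, 4, 1, 3], [4, 2, 4, 1, 3], [4, 1, 2, 4, 3], [1, 3, 2, 4, 3], [2, 1, 3, 4, 3], [3, 4, 1, 2, 4], [2, 1, 3, 2, 4], [3, 1, 3, 2, 4], [4, 1, 3, 2, 4], [3, 2, 1, 3, 4], [2, 4, 3, 1, 2, 1], [3, 4, 3, 1, 2, 1], [1, 3, 4, 1, 2, 1], [2, 4, 1, 3, 2, 1], [3, 4, 1, 3, 2, 1], [1, 2, 4, 3, 2, 1], [1, 3, 4, 3, 2, 1], [1, 3, 2, 4, 2, 1], [2, 1, 3, 4, 2, 1], [2, 4, 2, 1, 3, 1], [1, 2, 4, 1, 3, 1], [4, 2, 4, 1, 3, 1], [4, 1, 2, 4, 3, 1], [1, 3, 2, 4, 3, 1], [4, 1, 3, 2, 4, 1], [2, 4, 1, 3, 1, 2], [1, 2, 4, 3, 1, 2], [3, 2, 4, 3, 1, 2], [1, 3, 2, 4, 1, 2], [4, 3, 2, 4, 1, 2], [2, 1, 3, 4, 1, 2], [3, 2, 4, 1, 3, 2], [2, 1, 3, 4, 3, 2], [2, 1, 3, 2, 4, 2], [3, 1, 3, 2, 4, 2], [2, 4, 3, 2, 1, 3], [1, 3, 2, 4, 1, 3], [4, 3, 2, 4, 1, 3], [3, 4, 2, 4, 1, 3], [3, 4, 1, 2, 4, 3], [2, 1, 3, 2, 4, 3], [1, 3, 4, 1, 2, 4], [4, 3, 1, 3, 2, 4], [2,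 4, 1, 3, 2, 4], [3, 4, 1, 3, 2, 4], [4, 3, 2, 1, 3, 4], [3, 2, 4, 1, 3, 2, 1], [3, 1, 3, 2, 4, 2, 1], [3, 4, 2, 4, 1, 3, 1], [2, 4, 1, 3, 2, 4, 1], [3, 4, 1, 3, 2, 4, 1], [1, 3, 2, 4, 1, 3, 2], [1, 3, 2, 4, 1, 3, 2, 1]] : List (List ℕ)).map (evc Gn) = Lb := by decide +kernel
theorem gen_q : ([[3, 5, 3, 1, 3, 5, 3, 1], [5, 3, 5, 3], [5], [0], [1, 0, 1, 0], [1, 3, 1, 0, 1, 3, 1, 0], [1, 3, 5, 3, 1, 0, 1, 3, 5, 3, 1, 0]] : List (List ℕ)).map (evc Gn) = LQ.map (·.2) := by decide +kernel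
theorem gen_chk : allL (fun b => force (iv b) fun b' => allL (fun q => force (Nat.xor b q) fun a =>
    Nat.beq (mu b (app LQ (mu b' a) o)) a) Lq) Lb = true := by decide +kernel
theorem V.ind {P : ℕ → Prop} (hm : ∀ a b, P a → P b → P (H4.Hd.mu a b)) (h1 : P H4.Hd.o) (hL : ∀ x ∈ Gn, P x) {a : ℕ}
    (ha : V a) : P a := by
  obtain ⟨b, hb, q, hq, rfl⟩ := cover ha
  have h := gen_chk
  simp only [allL_iff, force_eq, Nat.beq_eq] at h
  have := h b hb q hq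
  change _ = b ^^^ q at this
  rw [← this]
  refine hm _ _ ?_ (app_ind hm (fun x hx => ?_) _ h1)
  · rw [← gen_b] at hb
    obtain ⟨w, -, rfl⟩ := List.mem_map.1 hb
    exact evc_ind hm h1 hL w
  · have : x.2 ∈ LQ.map (·.2) := List.mem_map_of_mem hx
    rw [← gen_q] at this
    obtain ⟨w, -, e⟩ := List.mem_map.1 this
    exact e ▸ evc_ind hm h1 hL w
theorem mu_assoc {a b c : ℕ} (ha : V a) (hb : V b) (hc : V c) : mu (mu a b) c = mu a (mu b c) := by
  obtain ⟨A, -, rfl⟩ := ha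
  obtain ⟨B, -, rfl⟩ := hb
  obtain ⟨C, -, rfl⟩ := hc
  simp only [mu_cd, mul_assoc]
theorem o_mu {a : ℕ} (ha : V a) : mu o a = a := by
  obtain ⟨A, -, rfl⟩ := ha
  rw [o_cd, mu_cd, one_mul]
theorem mu_o {a : ℕ} (ha : V a) : mu a o = a := by
  obtain ⟨A, -, rfl⟩ := ha
  rw [o_cd, mu_cd, mul_one]

/-- the transposition in the second diagonal -/
def trp (a : ℕ) : ℕ := force a fun x => List.rec (motive := fun _ => ℕ) 0
  (fun p _ ih => Nat.lor (Nat.shiftLeft (Nat.land (Nat.shiftRight x p.1) 1) p.2) ih) ([(0, 6), (1, 1), (2, 21), (3, 16), (4, 11), (5, 5), (6, 0), (7, 20), (8, 15), (9, 10), (10, 9), (11, 4), (12, 24), (13, 19), (14, 14), (15, 8), (16, 3), (17, 23), (18, 18), (19, 13), (20, 7), (21, 2), (22, 22), (23, 17), (24, 12)] : List (ℕ × ℕ))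
theorem trp_chk : allH (fun a => force (trp a) fun t => band (Nat.beq (trp t) a)
    (allL (fun g => Nat.beq (trp (mu g a)) (mu t (trp g))) Gn)) = true := by decide +kernel
theorem trp_trp {a : ℕ} (ha : V a) : trp (trp a) = a := by
  have := allH_spec trp_chk ha
  simp only [force_eq, band_iff, Nat.beq_eq] at this
  exact this.1
theorem trp_aux {a : ℕ} (ha : V a) : V a ∧ V (trp a) ∧ ∀ b, V b → V (trp b) → trp (mu a b) = mu (trp b) (trp a) := by
  have hto : trp o = o := by decide +kernel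
  have tg : ∀ g ∈ Gn, V (trp g) := by
    have : allL (fun g => vb (trp g)) Gn = true := by decide +kernel
    exact fun g hg => V.of_vb (allL_spec this g hg)
  refine V.ind (P := fun a => V a ∧ V (trp a) ∧ ∀ b, V b → V (trp b) → trp (mu a b) = mu (trp b) (trp a))
    ?_ ⟨V.o, hto.symm ▸ V.o, fun b hb hb' => by rw [o_mu hb, hto, mu_o hb']⟩ (fun g hg => ⟨Gn_V g hg, tg g hg, fun b hb _ => ?_⟩) ha
  · rintro x y ⟨a1, a2, a3⟩ ⟨b1, b2, b3⟩
    have e := a3 y b1 b2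
    refine ⟨a1.mu b1, e ▸ b2.mu a2, fun c c1 c2 => ?_⟩
    have e2 := b3 c c1 c2
    rw [mu_assoc a1 b1 c1, a3 _ (b1.mu c1) (e2 ▸ c2.mu b2), e2, e, mu_assoc c2 b2 a2]
  · have := allH_spec trp_chk hb
    simp only [force_eq, band_iff, Nat.beq_eq, allL_iff] at this
    exact this.2 g hg
theorem V.trp {a : ℕ} (ha : V a) : V (trp a) := (trp_aux ha).2.1
theorem trp_mu {a b : ℕ} (ha : V a) (hb : V b) : trp (mu a b) = mu (trp b) (trp a) := (trp_aux ha).2.2 b hb hb.trp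

variable {G : Type*} [Group G] {z : G}
/-- a frame: the codes describe the centralizer of `z` -/
structure Fr (z : G) where
  f : ℕ → G
  mul : ∀ {a b}, V a → V b → f (mu a b) = f a * f b
  inj : ∀ {a b}, V a → V b → f a = f b → a = b
  sur : ∀ {g}, g * z = z * g → ∃ a, V a ∧ f a = g
  fz : f cz = z

theorem cen_chk : allH (fun a => imp (allL (cm a) Gn) (bor (Nat.beq a o) (Nat.beq a cz))) = true := by decide +kernel
theorem exists_fr {s : SL} (hs : (s : Mt) = Matrix.transvection 0 1 1) (z1 : z ≠ 1)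
    (e : Subgroup.centralizer ({z} : Set G) ≃* Subgroup.centralizer ({s} : Set SL)) :
    ∃ F : Fr z, ∀ x : Subgroup.centralizer ({z} : Set G), F.f (cd (e x).1) = x := by
  classical
  obtain rfl : s = s0 := Subtype.ext hs
  let f : ℕ → G := fun a => if h : V a then
    (e.symm ⟨h.choose, Subgroup.mem_centralizer_singleton_iff.2 h.choose_spec.1⟩).1 else 1
  have hv : ∀ A : Subgroup.centralizer ({s0} : Set SL), V (cd A.1) := fun A =>
    ⟨A.1, Subgroup.mem_centralizer_singleton_iff.1 A.2, rfl⟩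
  have hf : ∀ A : Subgroup.centralizer ({s0} : Set SL), f (cd A.1) = e.symm A := fun A => by
    simp only [f, dif_pos (hv A)]
    congr 2
    exact Subtype.ext (cd_inj (hv A).choose_spec.2)
  have ex : ∀ {a}, V a → ∃ A : Subgroup.centralizer ({s0} : Set SL), cd A.1 = a := fun ⟨A, h1, h2⟩ =>
    ⟨⟨A, Subgroup.mem_centralizer_singleton_iff.2 h1⟩, h2⟩
  let z' : Subgroup.centralizer ({z} : Set G) := ⟨z, Subgroup.mem_centralizer_singleton_iff.2 rfl⟩
  have hz : cd (e z').1 = cz := by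
    have := allH_spec cen_chk (hv (e z'))
    simp only [imp_iff, allL_iff, cm_iff, bor_iff, Nat.beq_eq] at this
    refine (this fun g hg => ?_).resolve_left fun h => z1 ?_
    · obtain ⟨A, rfl⟩ := ex (Gn_V g hg)
      obtain ⟨x, rfl⟩ := e.surjective A
      have : e z' * e x = e x * e z' := by
        rw [← map_mul, ← map_mul]; congr 1
        exact Subtype.ext (Subgroup.mem_centralizer_singleton_iff.1 x.2).symm
      rw [mu_cd, mu_cd, ← Subgroup.coe_mul, this, Subgroup.coe_mul]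
    · have : e z' = 1 := Subtype.ext (cd_inj (h.trans o_cd))
      exact congrArg Subtype.val (e.map_eq_one_iff.1 this)
  refine ⟨⟨f, fun ha hb => ?_, fun ha hb h => ?_, fun {g} hg => ?_, ?_⟩, fun x => by simp only [hf, MulEquiv.symm_apply_apply]⟩
  · obtain ⟨A, rfl⟩ := ex ha
    obtain ⟨B, rfl⟩ := ex hb
    rw [mu_cd, hf, hf, ← Subgroup.coe_mul, ← Subgroup.coe_mul, ← map_mul, ← hf]
  · obtain ⟨A, rfl⟩ := ex ha
    obtain ⟨B, rfl⟩ := ex hb
    rw [hf, hf] at h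
    rw [e.symm.injective (Subtype.ext h)]
  · exact ⟨_, hv (e ⟨g, Subgroup.mem_centralizer_singleton_iff.2 hg⟩), by rw [hf, MulEquiv.symm_apply_apply]⟩
  · rw [← hz, hf, MulEquiv.symm_apply_apply]

namespace Fr
variable (F : Fr z)
theorem one : F.f o = 1 := by
  have := F.mul V.o V.o
  rw [o_mu V.o] at this
  exact left_eq_mul.1 this
theorem inv {a : ℕ} (ha : V a) : F.f (iv a) = (F.f a)⁻¹ :=
  eq_inv_of_mul_eq_one_right (by rw [← F.mul ha ha.iv, ha.mu_iv, F.one])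
include F in
theorem zz : z * z = 1 := by
  rw [← F.fz, ← F.mul V.cz V.cz, show mu cz cz = o by decide +kernel, F.one]
theorem cen {a : ℕ} (ha : V a) : F.f a * z = z * F.f a := by
  have := congrArg F.f ha.cm_cz
  rwa [F.mul ha V.cz, F.mul V.cz ha, F.fz] at this
theorem eq_iff {a b : ℕ} (ha : V a) (hb : V b) : F.f a = F.f b ↔ a = b := ⟨F.inj ha hb, fun h => by rw [h]⟩
theorem one_iff {a : ℕ} (ha : V a) : F.f a = 1 ↔ a = o := by rw [← F.one, F.eq_iff ha V.o]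
theorem cm_iff {a b : ℕ} (ha : V a) (hb : V b) : cm a b = true ↔ F.f a * F.f b = F.f b * F.f a := by
  rw [H4.Hd.cm_iff, ← F.mul ha hb, ← F.mul hb ha, F.eq_iff (ha.mu hb) (hb.mu ha)]
include F in
theorem z_ne : z ≠ 1 := fun h => absurd ((F.one_iff V.cz).1 (F.fz.trans h)) (by decide)
theorem evc {L : List ℕ} (hL : ∀ x ∈ L, V x) (w : List ℕ) : V (evc L w) ∧ F.f (evc L w) = ev (L.map F.f) w := by
  induction w with
  | nil => exact ⟨V.o, F.one⟩
  | cons g w ih =>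
    have := getD_ind V.o hL g
    rw [evc_cons, ev_cons, F.mul this ih.1, ih.2, ← F.one, List.getD_map]
    exact ⟨this.mu ih.1, rfl⟩
theorem mem_of_gens {K : Subgroup G} (h : ∀ x ∈ Gn, F.f x ∈ K) {g : G} (hg : g * z = z * g) : g ∈ K := by
  obtain ⟨a, ha, rfl⟩ := F.sur hg
  exact (V.ind (P := fun a => V a ∧ F.f a ∈ K) (fun a b h1 h2 => ⟨h1.1.mu h2.1, F.mul h1.1 h2.1 ▸ K.mul_mem h1.2 h2.2⟩)
    ⟨V.o, F.one ▸ K.one_mem⟩ (fun x hx => ⟨Gn_V x hx, h x hx⟩) ha).2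
/-- the frame twisted by the graph automorphism -/
def rev : Fr z where
  f a := (F.f (trp a))⁻¹
  mul ha hb := by rw [trp_mu ha hb, F.mul hb.trp ha.trp, mul_inv_rev]
  inj ha hb h := by rw [← trp_trp ha, F.inj ha.trp hb.trp (inv_injective h), trp_trp hb]
  sur {g} hg := by
    obtain ⟨a, ha, e⟩ := F.sur (g := g⁻¹) (show Commute g z from hg).inv_left.eq
    exact ⟨trp a, ha.trp, by rw [trp_trp ha, e, inv_inv]⟩
  fz := by rw [show trp cz = cz by decide +kernel, F.fz, inv_eq_of_mul_eq_one_right F.zz]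
theorem rev_f {a b : ℕ} (h : band (vb b) (band (Nat.beq (trp a) b) (Nat.beq (mu b b) o)) = true) : F.rev.f a = F.f b := by
  simp only [band_iff, Nat.beq_eq] at h
  change (F.f (trp a))⁻¹ = _
  rw [h.2.1]
  exact inv_eq_of_mul_eq_one_right (by rw [← F.mul (.of_vb h.1) (.of_vb h.1), h.2.2, F.one])
end Fr
end
end H4.Hd
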