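import Cfsg.Agent.H4.Hd2
import Cfsg.Agent.H16.Hall
import Cfsg.Agent.H3.Transfer
/-! Pattern subgroups of a frame: the Sylow 2-subgroup, the two elementary abelian subgroups of order 64, classes of involutions. -/
set_option autoImplicit false
set_option maxRecDepth 100000
set_option linter.style.haveILetI false
set_option linter.unusedSectionVars false
set_option linter.unusedVariables false
namespace H4.Hd
open H29 (force force_eq allL allL_spec anyL anyL_iff band band_iff)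
open H27 (cl mem_cl cl_le)
open H28 (ev ev_cons ev_nil Rels)
open Subgroup Cfsg H16
noncomputable section

variable {G : Type*} [Group G] {z : G}
namespace Fr
variable (F : Fr z)
theorem cj {h a : ℕ} (hh : V h) (ha : V a) : F.f (cj h a) = F.f h * F.f a * (F.f h)⁻¹ := by
  rw [cj_eq, F.mul (hh.mu ha) hh.iv, F.mul hh ha, F.inv hh]
def S (P : Pat) : Subgroup G := cl ((cds P.L).map F.f)
theorem mem_S_gen (P : Pat) {x : ℕ} (hx : x ∈ cds P.L) : F.f x ∈ F.S P := mem_cl (List.mem_map_of_mem hx)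
theorem S_le {P : Pat} {K : Subgroup G} (h : ∀ x ∈ cds P.L, F.f x ∈ K) : F.S P ≤ K := cl_le fun g hg => by
  obtain ⟨x, hx, rfl⟩ := List.mem_map.1 hg
  exact h x hx
theorem lst_S (P : Pat) : ∀ b ∈ lst P.L o, V b ∧ F.f b ∈ F.S P :=
  lst_ind (P := fun b => V b ∧ F.f b ∈ F.S P) (fun a b h1 h2 => ⟨h1.1.mu h2.1, F.mul h1.1 h2.1 ▸ mul_mem h1.2 h2.2⟩)
    (fun x hx => ⟨P.V (List.mem_map_of_mem hx), F.mem_S_gen P (List.mem_map_of_mem hx)⟩) ⟨V.o, F.one ▸ one_mem _⟩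
theorem mem_S {P : Pat} {g : G} : g ∈ F.S P ↔ ∃ a, V a ∧ pm P.M a = true ∧ F.f a = g := by
  refine ⟨fun hg => ?_, fun ⟨a, ha, hm, e⟩ => e ▸ (F.lst_S P a (P.mem_lst ha hm)).2⟩
  have key : ∀ x ∈ {g | g ∈ (cds P.L).map F.f}, ∀ y, (∃ a, V a ∧ pm P.M a = true ∧ F.f a = y) →
      ∃ a, V a ∧ pm P.M a = true ∧ F.f a = x * y := by
    rintro _ hy _ ⟨a, ha, hm, rfl⟩
    obtain ⟨x, hx, rfl⟩ := List.mem_map.1 hy
    exact ⟨_, (P.V hx).mu ha, (P.spec.2.2 a ha hm).2 x hx, F.mul (P.V hx) ha⟩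
  refine closure_induction_left (p := fun g _ => ∃ a, V a ∧ pm P.M a = true ∧ F.f a = g) ⟨o, V.o, P.spec.1, F.one⟩
    (fun x hx y _ h => key x hx y h) (fun x hx y _ h => ?_) hg
  have : x⁻¹ = x := by
    obtain ⟨w, hw, rfl⟩ := List.mem_map.1 hx
    exact inv_eq_of_mul_eq_one_right (by rw [← F.mul (P.V hw) (P.V hw), (P.spec.2.1 w hw).2, F.one])
  rw [this]; exact key x hx y h
theorem fS {P : Pat} {a : ℕ} (ha : V a) : F.f a ∈ F.S P ↔ pm P.M a = true :=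
  ⟨fun h => by obtain ⟨b, hb, hm, e⟩ := F.mem_S.1 h; exact F.inj hb ha e ▸ hm, fun h => F.mem_S.2 ⟨a, ha, h, rfl⟩⟩
theorem fS' (P : Pat) {a : ℕ} (h : band (vb a) (pm P.M a) = true) : F.f a ∈ F.S P :=
  (F.fS (.of_vb (band_iff.1 h).1)).2 (band_iff.1 h).2
theorem S_cen (P : Pat) : F.S P ≤ C1[z] := F.S_le fun _ hx => mem_cent1.2 (F.cen (P.V hx))
theorem card_le (P : Pat) (p : ℕ → Bool) {K : Subgroup G} (hK : ∀ g ∈ K, ∃ a, V a ∧ pm P.M a = true ∧ p a = true ∧ F.f a = g) :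
    Nat.card K ≤ cntP P.L p o := by
  classical
  rw [cntP_eq, List.countP_eq_length_filter, ← List.length_map F.f]
  refine le_trans ?_ (List.toFinset_card_le _)
  rw [← Set.ncard_coe_finset, ← SetLike.coe_sort_coe, Nat.card_coe_set_eq]
  refine Set.ncard_le_ncard (fun g hg => ?_) (Finset.finite_toSet _)
  obtain ⟨a, ha, hm, hp, rfl⟩ := hK g hg
  simp only [List.coe_toFinset, Set.mem_ofPred_eq]
  exact List.mem_map_of_mem (List.mem_filter.2 ⟨P.mem_lst ha hm, hp⟩)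
theorem nodup_lst (P : Pat) (nd : (lst P.L o).Nodup) : ((lst P.L o).map F.f).Nodup :=
  nd.map_on fun a ha b hb e => F.inj (F.lst_S P a ha).1 (F.lst_S P b hb).1 e
theorem mem_lst_iff (P : Pat) {g : G} : g ∈ (lst P.L o).map F.f ↔ g ∈ F.S P := by
  refine ⟨fun h => ?_, fun h => ?_⟩
  · obtain ⟨a, ha, rfl⟩ := List.mem_map.1 h
    exact (F.lst_S P a ha).2
  · obtain ⟨a, ha, hm, rfl⟩ := F.mem_S.1 h
    exact List.mem_map_of_mem (P.mem_lst ha hm)
theorem card_S (P : Pat) (nd : (lst P.L o).Nodup) : Nat.card (F.S P) = (lst P.L o).length := by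
  classical
  rw [← List.length_map F.f, ← List.toFinset_card_of_nodup (F.nodup_lst P nd), ← Set.ncard_coe_finset,
    ← SetLike.coe_sort_coe, Nat.card_coe_set_eq]
  congr 1; ext g
  simp only [List.coe_toFinset, Set.mem_ofPred_eq, SetLike.mem_coe, F.mem_lst_iff]
theorem cent_S {P : Pat} {g : G} (h : ∀ x ∈ cds P.L, F.f x * g = g * F.f x) : g ∈ C[F.S P] :=
  le_cent1.1 (F.S_le fun x hx => mem_cent1.2 (h x hx))
theorem card_A1 : Nat.card (F.S PA1) = 64 := (F.card_S PA1 (by decide +kernel)).trans (by decide +kernel)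
theorem card_A2 : Nat.card (F.S PA2) = 64 := (F.card_S PA2 (by decide +kernel)).trans (by decide +kernel)
/-- the code stands for a conjugate of `z` -/
def Z (a : ℕ) : Prop := IsConj z (F.f a)
theorem conj_rep {a : ℕ} (ha : V a) (h2 : mu a a = o) (h1 : a ≠ o) :
    cls a < 8 ∧ ∃ g ∈ C1[z], g * F.f (rep (cls a)) * g⁻¹ = F.f a := by
  obtain ⟨h3, h, hh, e⟩ := cls_spec ha h2 h1
  exact ⟨h3, F.f h, mem_cent1.2 (F.cen hh), by rw [← F.cj hh (rep_V h3), e]⟩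
theorem inv_rep {g : G} (hg : g ∈ C1[z]) (h2 : g * g = 1) (h1 : g ≠ 1) :
    ∃ k < 8, ∃ c ∈ C1[z], c * F.f (rep k) * c⁻¹ = g := by
  obtain ⟨a, ha, rfl⟩ := F.sur (mem_cent1.1 hg)
  obtain ⟨h3, h4⟩ := F.conj_rep ha ((F.one_iff (ha.mu ha)).1 (by rw [F.mul ha ha, h2])) fun e => h1 (e ▸ F.one)
  exact ⟨_, h3, h4⟩
theorem Z_cls {a : ℕ} (ha : V a) (h2 : mu a a = o) (h1 : a ≠ o) : F.Z a ↔ F.Z (rep (cls a)) := by
  obtain ⟨-, g, -, e⟩ := F.conj_rep ha h2 h1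
  have : IsConj (F.f (rep (cls a))) (F.f a) := isConj_iff.2 ⟨g, e⟩
  exact ⟨fun h => h.trans this.symm, fun h => h.trans this⟩
theorem Z_cz : F.Z cz := by rw [Z, F.fz]
theorem not_Z_o : ¬ F.Z o := fun h => F.z_ne (isConj_one_left.1 (F.one ▸ h))
theorem not_w : ¬ F.Z (rep 3) := fun h => by
  obtain ⟨c, hc⟩ := isConj_iff.1 h
  have x8 : V 0x1861641 := .of_vb (by decide +kernel)
  have h1 := (F.cm_iff x8 (rep_V (k := 3) (by norm_num))).1 (by decide +kernel)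
  have h4 : F.f 0x1861641 * F.f 0x1861641 * (F.f 0x1861641 * F.f 0x1861641) = z := by
    rw [← F.mul x8 x8, ← F.mul (x8.mu x8) (x8.mu x8), show mu (mu 0x1861641 0x1861641) (mu 0x1861641 0x1861641) = cz by decide +kernel, F.fz]
  generalize F.f 0x1861641 = x at h1 h4
  obtain ⟨a, ha, e⟩ := F.sur (g := c⁻¹ * x * c) (by
    rw [← hc] at h1
    calc _ = c⁻¹ * (x * (c * z * c⁻¹)) * c := by group
      _ = _ := by rw [h1]; group)
  have := allH_spec four_chk ha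
  simp only [force_eq, imp_iff, bor_iff, Nat.beq_eq, sq_eq] at this
  have e4 : F.f (mu (mu a a) (mu a a)) = c⁻¹ * z * c := by
    rw [F.mul (ha.mu ha) (ha.mu ha), F.mul ha ha, e, ← h4]; group
  have v4 := (ha.mu ha).mu (ha.mu ha)
  rcases this ((F.one_iff (v4.mu v4)).1 (by
    rw [F.mul v4 v4, e4, show c⁻¹ * z * c * (c⁻¹ * z * c) = c⁻¹ * (z * z) * c by group, F.zz]; group)) with h5 | h5
  · rw [h5, F.one] at e4
    exact F.z_ne (by rw [show z = c * (c⁻¹ * z * c) * c⁻¹ by group, ← e4]; group)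
  · rw [h5, F.fz] at e4
    have : F.f (rep 3) = F.f cz := by rw [← hc, F.fz]; nth_rw 1 [e4]; group
    exact absurd (F.inj (rep_V (by norm_num)) V.cz this) (by decide +kernel)

theorem a_spec {P : Pat} (h : aChk P = true) : C[F.S P] ≤ F.S P ∧ F.S P ≤ C[F.S P] ∧ z ∈ F.S P ∧ F.S P ≤ F.S PT ∧
    (∀ x ∈ cds PT.L, ∀ y ∈ cds P.L, F.f x * F.f y * (F.f x)⁻¹ ∈ F.S P) ∧ ∀ x ∈ F.S P, x * x = 1 := by
  simp only [aChk, band_iff, allL_iff] at h
  obtain ⟨⟨h1, h2, h3⟩, h4, h5⟩ := h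
  have hz : z ∈ F.S P := by have := (F.fS V.cz).2 h3; rwa [F.fz] at this
  have ab : F.S P ≤ C[F.S P] := F.S_le fun x hx => F.cent_S fun y hy => (F.cm_iff (P.V hy) (P.V hx)).1 (h2 y hy x hx)
  refine ⟨fun g hg => ?_, ab, hz, F.S_le fun x hx => (F.fS (P.V hx)).2 (h4 x hx), fun x hx y hy => ?_, fun g hg => ?_⟩
  · obtain ⟨a, ha, rfl⟩ := F.sur (mem_cent.1 hg z hz).symm
    have := allH_spec h1 ha
    simp only [imp_iff, allL_iff] at this
    exact (F.fS ha).2 (this fun x hx => (F.cm_iff ha (P.V hx)).2 (mem_cent.1 hg _ (F.mem_S_gen P hx)).symm)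
  · rw [← F.cj (PT.V hx) (P.V hy)]
    exact (F.fS ((PT.V hx).cj (P.V hy))).2 (h5 x hx y hy)
  · refine closure_induction (p := fun g _ => g * g = 1) (fun x hx => ?_) (one_mul _) (fun x y hx hy a b => ?_)
      (fun x _ a => by rw [← mul_inv_rev, a, inv_one]) hg
    · obtain ⟨w, hw, rfl⟩ := List.mem_map.1 hx
      rw [← F.mul (P.V hw) (P.V hw), (P.spec.2.1 w hw).2, F.one]
    · rw [mul_assoc, ← mul_assoc y, mem_cent.1 (ab hx) y hy, mul_assoc, b, mul_one, a]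

variable [Finite G]
theorem norm_S {P : Pat} {g : G} (h : ∀ x ∈ cds P.L, g * F.f x * g⁻¹ ∈ F.S P) : g ∈ N[F.S P] :=
  mem_norm_of_cj_le (cj_le_iff.2 (F.S_le fun x hx => mem_cj.2 (by rw [inv_inv]; exact h x hx)))
theorem T_norm {P : Pat} (h : aChk P = true) : F.S PT ≤ N[F.S P] :=
  F.S_le fun x hx => F.norm_S ((F.a_spec h).2.2.2.2.1 x hx)
theorem z_T : z ∈ F.S PT := by have := F.fS' PT (a := cz) (by decide +kernel); rwa [F.fz] at this
theorem norm_T : N[F.S PT] ≤ F.S PT := fun g hg => by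
  obtain ⟨a, ha, hm, e⟩ := F.mem_S.1 (conj_mem hg F.z_T)
  have := PT.all T_cen ha hm
  simp only [imp_iff, allL_iff, bor_iff, Nat.beq_eq] at this
  rcases this fun x hx => (F.cm_iff ha (PT.V hx)).2 (by
      have := mem_cent1.1 (F.S_cen PT (conj_mem' hg (F.mem_S_gen PT hx)))
      rw [e]
      calc _ = g * (z * (g⁻¹ * F.f x * g)) * g⁻¹ := by group
        _ = _ := by rw [← this]; group) with h | h
  · rw [h, F.one] at e
    exact absurd (H16.conj_eq_one_iff.1 e.symm) F.z_ne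
  · rw [h, F.fz] at e
    obtain ⟨b, hb, rfl⟩ := F.sur (g := g) (by nth_rw 2 [e]; group)
    have := allH_spec T_nrm hb
    simp only [bor_iff, force_eq, bnot_iff, allL_iff] at this
    refine (F.fS hb).2 (this.resolve_right (not_not.2 fun x hx => ?_))
    rw [← cj_eq, ← F.fS (hb.cj (PT.V hx)), F.cj hb (PT.V hx)]
    exact conj_mem hg (F.mem_S_gen PT hx)
theorem pg_T : Pg[2] (F.S PT) := pg_iff.2 fun g => ⟨3, Subtype.ext (by
  obtain ⟨a, ha, hm, e⟩ := F.mem_S.1 g.2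
  have := PT.all T_exp ha hm
  simp only [Nat.beq_eq, sq_eq] at this
  have h := congrArg F.f this
  rw [F.mul ((ha.mu ha).mu (ha.mu ha)) ((ha.mu ha).mu (ha.mu ha)), F.mul (ha.mu ha) (ha.mu ha), F.mul ha ha, F.one, e] at h
  rw [Subgroup.coe_pow, Subgroup.coe_one, ← h, show 2 ^ 3 = 8 from rfl]
  simp only [pow_succ, pow_zero, one_mul, mul_assoc])⟩
theorem sy_T : Sy[2] (F.S PT) ⊤ := sy_of_norm_le (hl_self F.pg_T) le_top (inf_le_right.trans F.norm_T)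
theorem l64 {E : Subgroup G} (hE : E ≤ F.S PT) (h2 : ∀ x ∈ E, x * x = 1) (hc : E ≤ C[E]) (h64 : Nat.card E = 64) :
    E = F.S PA1 ∨ E = F.S PA2 := by
  have sq1 : ∀ {a}, V a → F.f a ∈ E → Nat.beq (sq a) o = true := fun ha h => by
    rw [Nat.beq_eq, sq_eq, ← F.one_iff (ha.mu ha), F.mul ha ha]; exact h2 _ h
  have hJ : ∀ x ∈ E, x ∈ F.S PA1 ∨ x ∈ F.S PA2 := fun x hx => by
    obtain ⟨a, ha, hm, rfl⟩ := F.mem_S.1 (hE hx)
    have := PT.all T_cnt ha hm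
    simp only [imp_iff, bor_iff, Nat.blt_eq] at this
    rcases this (sq1 ha hx) with h | h
    · have := PJ.all J_inv ha h
      simp only [imp_iff, bor_iff] at this
      exact (this (sq1 ha hx)).imp (F.fS ha).2 (F.fS ha).2
    · refine absurd (F.card_le PT (fun y => band (Nat.beq (sq y) o) (cm a y)) (K := E) fun g hg => ?_) (by omega)
      obtain ⟨b, hb, hm, rfl⟩ := F.mem_S.1 (hE hg)
      exact ⟨b, hb, hm, band_iff.2 ⟨sq1 hb hg, (F.cm_iff ha hb).2 (mem_cent.1 (hc hg) _ hx)⟩, rfl⟩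
  by_cases h1 : E ≤ F.S PA1
  · exact Or.inl (eq_of_le_of_card_ge h1 (by rw [F.card_A1, h64]))
  refine Or.inr (eq_of_le_of_card_ge (fun x hx => ?_) (by rw [F.card_A2, h64]))
  obtain ⟨y, hy, h3⟩ := SetLike.not_le_iff_exists.1 h1
  by_contra h4
  obtain ⟨a, ha, hm, rfl⟩ := F.mem_S.1 ((hJ x hx).resolve_right h4)
  obtain ⟨b, hb, hm', rfl⟩ := F.mem_S.1 ((hJ y hy).resolve_left h3)
  have := PA1.all A_nc ha hm
  rw [bor_iff] at this
  have := PA2.all (this.resolve_left fun h => h4 ((F.fS ha).2 h)) hb hm'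
  rw [bor_iff, bnot_iff] at this
  exact this.elim (fun h => h3 ((F.fS hb).2 h)) fun h => h ((F.cm_iff ha hb).2 (mem_cent.1 (hc hy) _ hx))
theorem A_ne : F.S PA1 ≠ F.S PA2 := fun h =>
  absurd ((F.fS (P := PA2) (a := 0x1049041) (.of_vb (by decide +kernel))).1 (h ▸ F.fS' PA1 (by decide +kernel))) (by decide +kernel)
theorem not_cj {g : G} : F.S PA1 :^ g ≠ F.S PA2 := fun h => by
  have h1 : Sy[2] (F.S PT) N[F.S PA2] := hl_of_le F.sy_T (F.T_norm aChk2) le_top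
  have h2 : Sy[2] (F.S PT :^ g) N[F.S PA2] :=
    hl_of_le (hl_cj_top F.sy_T g) (h ▸ norm_cj_le (F.T_norm aChk1) g) le_top
  obtain ⟨n, hn, e⟩ := sy_conj h2 h1
  rw [cj_cj, cj_eq_self_iff] at e
  have := cj_norm (F.T_norm aChk1 (F.norm_T e))
  rw [← cj_cj, h, cj_norm hn] at this
  exact F.A_ne this.symm
theorem cj_l64 {P : Pat} (h : aChk P = true) (h64 : Nat.card (F.S P) = 64) {g : G} (hg : F.S P :^ g ≤ F.S PT) :
    F.S P :^ g = F.S PA1 ∨ F.S P :^ g = F.S PA2 :=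
  F.l64 hg (fun x hx => by
    have := (F.a_spec h).2.2.2.2.2 _ (mem_cj.1 hx)
    rw [show x * x = g * (g⁻¹ * x * g * (g⁻¹ * x * g)) * g⁻¹ by group, this]; group)
    (cent_cj_le (F.a_spec h).2.1 g) ((card_cj _ _).trans h64)
theorem wc1 : IsWeaklyClosed (F.S PA1) (F.S PT) :=
  ⟨(F.a_spec aChk1).2.2.2.1, fun _ hg => (F.cj_l64 aChk1 F.card_A1 hg).resolve_right F.not_cj⟩
theorem wc2 : IsWeaklyClosed (F.S PA2) (F.S PT) :=
  ⟨(F.a_spec aChk2).2.2.2.1, fun _ hg => (F.cj_l64 aChk2 F.card_A2 hg).resolve_left fun h => F.not_cj (cj_eq_iff.1 h).symm⟩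
theorem ctl {P : Pat} (h : aChk P = true) (hw : IsWeaklyClosed (F.S P) (F.S PT)) (A : Set G) (g : G)
    (h1 : ∀ a ∈ A, a ∈ F.S P) (h2 : ∀ a ∈ A, g * a * g⁻¹ ∈ F.S P) : ∃ v ∈ N[F.S P], ∀ a ∈ A, g * a * g⁻¹ = v * a * v⁻¹ := by
  obtain ⟨T, hT⟩ := sylow_of_sy_top F.sy_T
  exact H3.strong_fusion_of_weaklyClosed T (hT ▸ hw) A g (fun a ha => (F.a_spec h).2.1 (h1 a ha))
    fun a ha => (F.a_spec h).2.1 (h2 a ha)
end Fr
end
end H4.Hd
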