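import Cfsg.Agent.H4.Hd3
import Cfsg.Agent.H4.Hd4
/-! Frames: fusion of involutions, and the elements of order three normalizing an elementary abelian subgroup of order 64. -/
set_option autoImplicit false
set_option maxRecDepth 100000
set_option linter.style.haveILetI false
set_option linter.unusedSectionVars false
set_option linter.unusedVariables false
namespace H4.Hd
open H29 (force force_eq allL allL_spec anyL anyL_iff band band_iff)
open H27 (cl mem_cl cl_le)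
open H28 (ev ev_cons ev_nil Rels)
open Subgroup Cfsg H16
noncomputable section

variable {G : Type*} [Group G] {z : G}
open Classical in
def gc (z : G) (l : List G) (x : G) : ℕ :=
  (l.map fun a => l.countP fun b => decide (IsConj z a ∧ IsConj z b ∧ IsConj z (a * b * x))).sum
theorem gc_perm {l l' : List G} (h : l.Perm l') (x : G) : gc z l x = gc z l' x := by
  unfold gc
  simp only [h.countP_eq]
  exact (h.map _).sum_eq
theorem isConj_cj (n a : G) : IsConj z (n * a * n⁻¹) ↔ IsConj z a :=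
  have : IsConj a (n * a * n⁻¹) := isConj_iff.2 ⟨n, rfl⟩
  ⟨fun h => h.trans this.symm, fun h => h.trans this⟩
theorem gc_cj (l : List G) (n x : G) : gc z (l.map fun a => n * a * n⁻¹) (n * x * n⁻¹) = gc z l x := by
  classical
  unfold gc
  rw [List.map_map]
  refine congrArg List.sum (List.map_congr_left fun a _ => ?_)
  simp only [Function.comp, List.countP_map]
  refine List.countP_congr fun b _ => ?_
  simp only [Function.comp]
  rw [show n * a * n⁻¹ * (n * b * n⁻¹) * (n * x * n⁻¹) = n * (a * b * x) * n⁻¹ by group]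
  rw [decide_eq_true_iff, decide_eq_true_iff, isConj_cj, isConj_cj, isConj_cj]
/-- `ρ` acts on the self-centralizing elementary abelian group `A` with `ρ² + ρ + 1 = 0` -/
structure Tri (A : Subgroup G) (ρ : G) : Prop where
  nm : ρ ∈ N[A]
  ab : A ≤ C[A]
  sq : ∀ x ∈ A, x * x = 1
  sc : C[A] ≤ A
  nt : ∃ x ∈ A, x ≠ 1
  tri : ∀ x ∈ A, ρ * (ρ * x * ρ⁻¹) * ρ⁻¹ * x = ρ * x * ρ⁻¹
theorem cj_sw {a b : G} (h : a * b * a⁻¹ = b) : b * a * b⁻¹ = a :=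
  mul_inv_eq_iff_eq_mul.2 (mul_inv_eq_iff_eq_mul.1 h).symm
/-- the extended centralizer -/
def Bs (ρ : G) : Subgroup G where
  carrier := {g | g * ρ * g⁻¹ = ρ ∨ g * ρ * g⁻¹ = ρ⁻¹}
  one_mem' := Or.inl (by group)
  mul_mem' {a b} ha hb := by
    have k : a * ρ⁻¹ * a⁻¹ = (a * ρ * a⁻¹)⁻¹ := by group
    have e : a * b * ρ * (a * b)⁻¹ = a * (b * ρ * b⁻¹) * a⁻¹ := by group
    rcases ha with ha | ha <;> rcases hb with hb | hb
    · exact Or.inl (by rw [e, hb, ha])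
    · exact Or.inr (by rw [e, hb, k, ha])
    · exact Or.inr (by rw [e, hb, ha])
    · exact Or.inl (by rw [e, hb, k, ha, inv_inv])
  inv_mem' {a} ha := by
    rcases ha with ha | ha
    · exact Or.inl (by nth_rw 1 [← ha]; group)
    · exact Or.inr (by nth_rw 1 [← inv_inv ρ]; nth_rw 1 [← ha]; group)
theorem mem_Bs {ρ g : G} (h : ρ * g * ρ⁻¹ = g) : g ∈ Bs ρ := Or.inl (cj_sw h)
namespace Tri
variable {A : Subgroup G} {ρ x a d e s : G} (h : Tri A ρ)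
include h
theorem cm (hx : x ∈ A) (ha : a ∈ A) : x * a = a * x := mem_cent.1 (h.ab ha) x hx
theorem fpf (hx : x ∈ A) (e : ρ * x * ρ⁻¹ = x) : x = 1 := by
  have := h.tri x hx
  rw [e, e] at this
  exact mul_eq_left.1 this
theorem mul_s (hx : x ∈ A) : x * (ρ * x * ρ⁻¹) = ρ * (ρ * x * ρ⁻¹) * ρ⁻¹ := by
  rw [h.cm hx (conj_mem h.nm hx)]
  nth_rw 1 [← h.tri x hx]
  rw [mul_assoc _ x, h.sq x hx, mul_one]
theorem s3 (hx : x ∈ A) : ρ * (ρ * (ρ * x * ρ⁻¹) * ρ⁻¹) * ρ⁻¹ = x := by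
  rw [← h.mul_s (conj_mem h.nm hx), ← h.mul_s hx, h.cm hx (conj_mem h.nm hx), ← mul_assoc, h.sq _ (conj_mem h.nm hx), one_mul]
theorem o3 : ρ * ρ * ρ = 1 :=
  h.fpf (h.sc (mem_cent.2 fun x hx => by nth_rw 1 [← h.s3 hx]; group)) (by group)
theorem conj_eq (he : e ∈ A) : e * ρ * e⁻¹ = ρ * (ρ * e * ρ⁻¹) * ρ⁻¹ * ρ := by
  rw [← h.mul_s he, inv_eq_of_mul_eq_one_right (h.sq e he)]; group
theorem conj_inv (he : e ∈ A) : e * ρ⁻¹ * e⁻¹ = ρ * e * ρ⁻¹ * ρ⁻¹ := by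
  have e1 : ρ⁻¹ = ρ * ρ := inv_eq_of_mul_eq_one_right (by rw [← mul_assoc, h.o3])
  have e2 := h.tri e he
  rw [h.cm (conj_mem h.nm (conj_mem h.nm he)) he] at e2
  rw [inv_eq_of_mul_eq_one_right (h.sq e he), ← e2]
  nth_rw 1 [e1]
  have : ρ⁻¹ * ρ⁻¹ * ρ⁻¹ = 1 := by rw [← mul_inv_rev, ← mul_inv_rev, ← mul_assoc, h.o3, inv_one]
  calc _ = e * (ρ * ρ) * e * (ρ⁻¹ * ρ⁻¹ * ρ⁻¹) := by rw [this, mul_one]
    _ = _ := by group
theorem inf (hx : x ∈ A) (hb : x ∈ Bs ρ) : x = 1 := by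
  rcases hb with hb | hb
  · exact h.fpf hx (cj_sw hb)
  obtain ⟨y, hy, y1⟩ := h.nt
  have e1 : ρ⁻¹ * ρ⁻¹ = ρ := by
    rw [← mul_inv_rev, inv_eq_of_mul_eq_one_right h.o3]
  have : ρ ∈ A := by
    rw [← e1]; nth_rw 1 [← hb]; rw [h.conj_eq hx, mul_inv_cancel_right]
    exact conj_mem h.nm (conj_mem h.nm hx)
  exact absurd (h.fpf hy (by rw [h.cm this hy, mul_inv_cancel_right])) y1
theorem lift1 (ha : ρ * x * ρ⁻¹ * x⁻¹ ∈ A) : ∃ a ∈ A, ρ * (a * x) * ρ⁻¹ = a * x :=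
  ⟨_, conj_mem h.nm ha, by nth_rw 2 [← h.tri _ ha]; group⟩
theorem lift2 (ha : d * ρ * d⁻¹ * ρ ∈ A) : ∃ a ∈ A, a * d * ρ * (a * d)⁻¹ = ρ⁻¹ := by
  refine ⟨_, conj_mem h.nm (conj_mem h.nm ha), ?_⟩
  generalize hc : d * ρ * d⁻¹ * ρ = c at ha
  have e : ∀ y : G, y * d * ρ * (y * d)⁻¹ = y * c * y⁻¹ * (y * ρ⁻¹ * y⁻¹) := fun y => by rw [← hc]; group
  have k := conj_mem h.nm (conj_mem h.nm ha)
  rw [e, h.conj_inv k, h.s3 ha, h.cm k ha, mul_inv_cancel_right, ← mul_assoc, h.sq c ha, one_mul]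
theorem fix (he : e ∈ A) (hx : x ∈ A) : e * ρ * e⁻¹ * x * (e * ρ * e⁻¹)⁻¹ = ρ * x * ρ⁻¹ := by
  have k := conj_mem h.nm (conj_mem h.nm he)
  rw [h.conj_eq he]
  generalize ρ * (ρ * e * ρ⁻¹) * ρ⁻¹ = y at k
  rw [show y * ρ * x * (y * ρ)⁻¹ = y * (ρ * x * ρ⁻¹) * y⁻¹ by group, h.cm k (conj_mem h.nm hx), mul_inv_cancel_right]
theorem con (h1 : s * ρ * s⁻¹ = ρ) (h2 : s * x * s⁻¹ = x) (h3 : d * ρ * d⁻¹ = ρ⁻¹) (h4 : x * d⁻¹ ∈ A) :
    s * (ρ * (x * d⁻¹) * ρ⁻¹) * s⁻¹ = ρ * (x * d⁻¹) * ρ⁻¹ := by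
  have e2 : ρ * (x * d⁻¹) * ρ⁻¹ = x * ρ * x⁻¹ * ρ := by
    calc _ = ρ * (x * d⁻¹) * ρ⁻¹ * ρ⁻¹ * ρ := by group
      _ = x * (d⁻¹ * ρ⁻¹ * d) * x⁻¹ * ρ := by rw [← h.conj_inv h4]; group
      _ = _ := by rw [← h3]; group
  rw [e2]
  nth_rw 3 [← h1]; nth_rw 4 [← h1]; nth_rw 3 [← h2]; nth_rw 4 [← h2]; group
end Tri
theorem evc2_ind {R : ℕ → ℕ → Prop} (hm : ∀ a b c d, R a b → R c d → R (mu a c) (mu b d)) (h1 : R o o) {L L' : List ℕ}
    (h : List.Forall₂ R L L') (w : List ℕ) : R (evc L w) (evc L' w) := by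
  have k : ∀ g, R (L.getD g o) (L'.getD g o) := by
    induction h with
    | nil => exact fun _ => h1
    | cons a _ ih => exact fun g => by cases g with | zero => exact a | succ g => exact ih g
  induction w with
  | nil => exact h1
  | cons g w ih => rw [evc_cons, evc_cons]; exact hm _ _ _ _ (k g) ih
def evf (ts : ℕ → ℕ → ℕ) (w : List ℕ) (v : ℕ) : ℕ :=
  List.rec (motive := fun _ => ℕ) v (fun i _ ih => force ih (ts i)) w
def mkW (L : List (ℕ × ℕ)) (t : ℕ → ℕ) : List (ℕ × ℕ) := L.map fun x => (x.1, t x.2)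
/-- `g` acts on the pattern as the function `t` -/
def Tr (R : G → ℕ → ℕ → Prop) (P : Pat) (g : G) (t : ℕ → ℕ) : Prop :=
  ∀ v, V v → pm P.M v = true → V (t v) ∧ pm P.M (t v) = true ∧ R g v (t v)
theorem Tr.word {R : G → ℕ → ℕ → Prop} (h1 : ∀ v, V v → R 1 v v) (hm : ∀ g g' a b c, R g a b → R g' b c → R (g' * g) a c)
    {P : Pat} {xs : List G} {ts : ℕ → ℕ → ℕ} {w : List ℕ} (h : ∀ i ∈ w, Tr R P (xs.getD i 1) (ts i)) :
    Tr R P (ev xs w) (evf ts w) := by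
  induction w with
  | nil => exact fun v a b => ⟨a, b, h1 v a⟩
  | cons i w ih =>
    intro v a b
    obtain ⟨c, d, e⟩ := ih (fun j hj => h j (List.mem_cons_of_mem _ hj)) v a b
    obtain ⟨c', d', e'⟩ := h i List.mem_cons_self _ c d
    exact ⟨c', d', ev_cons xs i w ▸ hm _ _ _ _ _ e e'⟩

namespace Fr
variable (F : Fr z)
open Classical in
def pt : ℕ := Nat.ofBits fun k : Fin 8 => decide (F.Z (rep k))
theorem pt_lt : F.pt < 256 := Nat.ofBits_lt_two_pow _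
theorem tb_pt {k : ℕ} (hk : k < 8) : tb F.pt k = true ↔ F.Z (rep k) := by
  classical
  rw [tb_eq, pt, Nat.testBit_ofBits_lt _ _ hk, decide_eq_true_iff]
theorem Oz_iff {a : ℕ} (ha : V a) (h2 : mu a a = o) : Oz F.pt a = true ↔ F.Z a := by
  by_cases h1 : a = o
  · subst h1
    rw [Oz, show cls o = 8 by decide +kernel, tb_eq, Nat.testBit_lt_two_pow F.pt_lt]
    exact ⟨fun h => absurd h (by decide), fun h => absurd h F.not_Z_o⟩
  · rw [F.Z_cls ha h2 h1]; exact F.tb_pt (cls_spec ha h2 h1).1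
theorem sq_o {P : Pat} (h : aChk P = true) {a : ℕ} (ha : V a) (hm : F.f a ∈ F.S P) : mu a a = o :=
  (F.one_iff (ha.mu ha)).1 (by rw [F.mul ha ha, (F.a_spec h).2.2.2.2.2 _ hm])
theorem cnt_eq {P : Pat} (h : aChk P = true) {x : ℕ} (hx : V x) (hm : F.f x ∈ F.S P) :
    cnt (lst P.L o) (Oz F.pt) x = gc z ((lst P.L o).map F.f) (F.f x) := by
  unfold cnt gc
  rw [List.map_map]
  refine congrArg List.sum (List.map_congr_left fun a ha => ?_)
  simp only [Function.comp, List.countP_map]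
  refine List.countP_congr fun b hb => ?_
  obtain ⟨a1, a2⟩ := F.lst_S P a ha
  obtain ⟨b1, b2⟩ := F.lst_S P b hb
  have c1 := (a1.mu b1).mu hx
  have e : F.f (mu (mu a b) x) = F.f a * F.f b * F.f x := by rw [F.mul (a1.mu b1) hx, F.mul a1 b1]
  simp only [Function.comp, band_iff, decide_eq_true_iff]
  rw [F.Oz_iff a1 (F.sq_o h a1 a2), F.Oz_iff b1 (F.sq_o h b1 b2),
    F.Oz_iff c1 (F.sq_o h c1 (e ▸ mul_mem (mul_mem a2 b2) hm)), ← e]; rfl
/-- `r` conjugates `a` to `b` -/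
def Cj (r : G) (a b : ℕ) : Prop := V a ∧ V b ∧ r * F.f a * r⁻¹ = F.f b
variable {F} {r s : G} {a b c d : ℕ} {P : Pat} {W : List (ℕ × ℕ)}
theorem Cj.mu (h : F.Cj r a b) (k : F.Cj r c d) : F.Cj r (mu a c) (mu b d) :=
  ⟨h.1.mu k.1, h.2.1.mu k.2.1, by rw [F.mul h.1 k.1, F.mul h.2.1 k.2.1, ← h.2.2, ← k.2.2]; group⟩
theorem Cj.o : F.Cj r o o := ⟨V.o, V.o, by rw [F.one]; group⟩
theorem Cj.one (v : ℕ) (h : V v) : F.Cj 1 v v := ⟨h, h, by group⟩
theorem Cj.comp (h : F.Cj r a b) (k : F.Cj s b c) : F.Cj (s * r) a c := ⟨h.1, k.2.1, by rw [← k.2.2, ← h.2.2]; group⟩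
theorem Cj.h (h : V a) (k : V b) : F.Cj (F.f a) b (H4.Hd.cj a b) := ⟨k, h.cj k, (F.cj h k).symm⟩
theorem Cj.symm (h : F.Cj r a b) : F.Cj r⁻¹ b a := ⟨h.2.1, h.1, by rw [← h.2.2]; group⟩
theorem Cj.uniq (h : F.Cj r a b) (k : F.Cj r a c) : b = c := F.inj h.2.1 k.2.1 (h.2.2.symm.trans k.2.2)
theorem Cj.cancel (h : F.Cj r a b) (k : F.Cj (s * r) a c) : F.Cj s b c := by simpa using h.symm.comp k
theorem Cj.Z (h : F.Cj r a b) : F.Z b ↔ F.Z a := by rw [Fr.Z, ← h.2.2, isConj_cj]; rfl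
theorem Cj.evc {L : List ℕ} (h : ∀ x ∈ L, F.Cj r x x) (w : List ℕ) : F.Cj r (H4.Hd.evc L w) (H4.Hd.evc L w) :=
  evc_ind (P := fun x => F.Cj r x x) (fun _ _ => Cj.mu) Cj.o h w
theorem Cj.rev (h : F.rev.Cj r a b) : F.Cj r (trp a) (trp b) :=
  ⟨h.1.trp, h.2.1.trp, inv_injective (Eq.trans (by change _ = r * (F.f (trp a))⁻¹ * r⁻¹; group) h.2.2)⟩
theorem Cj.eq {a' b' : ℕ} (h : F.Cj r a b) (k : band (Nat.beq a a') (Nat.beq b b') = true := by decide +kernel) : F.Cj r a' b' := by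
  simp only [band_iff, Nat.beq_eq] at k
  exact k.1 ▸ k.2 ▸ h
theorem Cj.ex (hr : r ∈ N[F.S P]) (ha : V a) (hm : pm P.M a = true) : ∃ b, pm P.M b = true ∧ F.Cj r a b := by
  obtain ⟨b, h1, h2, h3⟩ := F.mem_S.1 (conj_mem hr ((F.fS ha).2 hm))
  exact ⟨b, h2, ha, h1, h3.symm⟩
theorem Cj.pm (h : F.Cj r a b) (hr : r ∈ N[F.S P]) (hm : pm P.M a = true) : pm P.M b = true :=
  (F.fS h.2.1).1 (h.2.2 ▸ conj_mem hr ((F.fS h.1).2 hm))
/-- the action on a pattern is given on a basis -/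
def AC (F : Fr z) (r : G) (P : Pat) (W : List (ℕ × ℕ)) : Prop := ∀ a, V a → pm P.M a = true → F.Cj r a (app W a o)
theorem AC.of2 (h : List.Forall₂ (fun x y => x.1 = y.1 ∧ F.Cj r x.2 y.2) P.L W) : F.AC r P W := fun a ha hm => by
  have k : ∀ {L W : List (ℕ × ℕ)}, List.Forall₂ (fun x y => x.1 = y.1 ∧ F.Cj r x.2 y.2) L W →
      ∀ c d, F.Cj r c d → F.Cj r (app L a c) (app W a d) := fun h => by
    induction h with
    | nil => exact fun c d e => e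
    | cons e _ ih =>
      intro c d k
      rw [app_cons, app_cons, ← e.1]; split_ifs
      exacts [ih _ _ (k.mu e.2), ih _ _ k]
  have := k h o o Cj.o
  rwa [(P.spec.2.2 a ha hm).1] at this
theorem AC.mk {t : ℕ → ℕ} (h : ∀ x ∈ cds P.L, F.Cj r x (t x)) (e : mkW P.L t = W) : F.AC r P W :=
  e ▸ AC.of2 (List.forall₂_map_right_iff.2 (List.forall₂_same.2 fun x hx => ⟨rfl, h _ (List.mem_map_of_mem hx)⟩))
theorem AC.tr (h : F.AC r P W) (hr : r ∈ N[F.S P]) : Tr F.Cj P r (fun v => app W v o) := fun v a b =>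
  ⟨(h v a b).2.1, (h v a b).pm hr b, h v a b⟩
theorem tr_h (ha : V a) (hr : F.f a ∈ N[F.S P]) : Tr F.Cj P (F.f a) (H4.Hd.cj a) := fun v k b =>
  ⟨ha.cj k, (Cj.h ha k).pm hr b, Cj.h ha k⟩
theorem cj_word {xs : List G} {ts : ℕ → ℕ → ℕ} {w : List ℕ} (h : ∀ i ∈ w, Tr F.Cj P (xs.getD i 1) (ts i)) :
    Tr F.Cj P (ev xs w) (evf ts w) := Tr.word Cj.one (fun _ _ _ _ _ => Cj.comp) h
theorem gen_pm (P : Pat) {x : ℕ} (hx : x ∈ cds P.L) : pm P.M x = true := by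
  have := (P.spec.2.2 _ V.o P.spec.1).2 x hx
  rwa [mu_o (P.V hx)] at this
theorem tr_cent {t : ℕ → ℕ} (hP : aChk P = true) (h : Tr F.Cj P r t) (k : allL (fun x => Nat.beq (t x) x) (cds P.L) = true) :
    r ∈ F.S P := (F.a_spec hP).1 (F.cent_S fun x hx => by
  have := (h x (P.V hx) (gen_pm P hx)).2.2.2.2
  rw [Nat.beq_eq.mp (allL_spec k x hx)] at this
  exact (mul_inv_eq_iff_eq_mul.1 this).symm)
theorem AC.tri (h : F.AC r P W) (hr : r ∈ N[F.S P]) (hP : aChk P = true) (hW : wChk P W = true) : Tri (F.S P) r := by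
  obtain ⟨h1, h2, h3, -, -, h4⟩ := F.a_spec hP
  refine ⟨hr, h2, h4, h1, ⟨z, h3, F.z_ne⟩, fun x hx => ?_⟩
  obtain ⟨a, ha, hm, rfl⟩ := F.mem_S.1 hx
  have k := h a ha hm
  have k2 := h _ k.2.1 (k.pm hr hm)
  have := P.all hW ha hm
  rw [force_eq, Nat.beq_eq] at this
  rw [k.2.2, k2.2.2, ← F.mul k2.2.1 ha, this]

variable [Finite G]
theorem AC.nm (h : F.AC r P W) (k : allL (fun x => pm P.M (app W x o)) (cds P.L) = true) : r ∈ N[F.S P] :=
  F.norm_S fun x hx => by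
    have := h x (P.V hx) (gen_pm P hx)
    rw [this.2.2]; exact (F.fS this.2.1).2 (allL_spec k x hx)
theorem nm_of (P : Pat) (h : nmP P a = true := by decide +kernel) : V a ∧ F.f a ∈ N[F.S P] := by
  simp only [nmP, band_iff, allL_iff] at h
  have ha := V.of_vb h.1
  exact ⟨ha, F.norm_S fun x hx => F.cj ha (P.V hx) ▸ (F.fS (ha.cj (P.V hx))).2 (h.2 x hx)⟩
variable (F)
theorem cnt_ne (h : aChk P = true) (hw : IsWeaklyClosed (F.S P) (F.S PT)) (nd : (lst P.L o).Nodup) {k : ℕ} (hk : k < 8)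
    (hm : pm P.M (rep k) = true) : ¬ cntNe (lst P.L o) F.pt k = true := fun hc => by
  simp only [cntNe, band_iff, bnot_iff, Nat.beq_eq] at hc
  obtain ⟨g, hg⟩ := isConj_iff.1 ((F.tb_pt hk).1 hc.1)
  have hz := (F.a_spec h).2.2.1
  have hr := (F.fS (rep_V hk)).2 hm
  obtain ⟨n, hn, e⟩ := F.ctl h hw {z} g (fun a ha => by rw [ha]; exact hz) (fun a ha => by rw [ha, hg]; exact hr)
  refine hc.2 ?_
  rw [F.cnt_eq h V.cz (by rwa [F.fz]), F.cnt_eq h (rep_V hk) hr, F.fz, ← hg, e z rfl, ← gc_cj _ n]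
  refine gc_perm ((List.perm_ext_iff_of_nodup ((F.nodup_lst P nd).map fun a b e => by simpa using e)
    (F.nodup_lst P nd)).2 fun x => ?_) _
  rw [List.mem_map, F.mem_lst_iff]
  exact ⟨fun ⟨y, hy, e⟩ => e ▸ conj_mem hn ((F.mem_lst_iff P).1 hy),
    fun hx => ⟨_, (F.mem_lst_iff P).2 (conj_mem' hn hx), by group⟩⟩
theorem nd1 : (lst PA1.L o).Nodup := by decide +kernel
theorem nd2 : (lst PA2.L o).Nodup := by decide +kernel
theorem Z0 : F.Z (rep 0) := F.Z_cz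
theorem nwc {g : G} (h1 : g * z * g⁻¹ ∈ C1[z]) (h2 : g * z * g⁻¹ ≠ z) : F.Z (rep 1) ∨ F.Z (rep 2) := by
  by_contra hc
  rw [not_or, ← F.tb_pt (by norm_num), ← F.tb_pt (by norm_num)] at hc
  have := H29.allR_lt nwc_chk _ F.pt_lt
  simp only [imp_iff, bor_iff, Nat.beq_eq, anyL_iff, ← LA1_eq, ← LA2_eq] at this
  have k : ∀ p < 256, tb p 0 = true → ¬ tb p 1 = true → ¬ tb p 2 = true → ¬ tb p 3 = true → Nat.land p 15 = 1 := by
    decide +kernel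
  rcases this (k _ F.pt_lt ((F.tb_pt (by norm_num)).2 F.Z0) hc.1 hc.2 fun h => F.not_w ((F.tb_pt (by norm_num)).1 h)) with
    h | ⟨k, hk, h⟩ | h
  · obtain ⟨k, hk, c, hc, e⟩ := F.inv_rep h1 (by rw [conj_mul, F.zz]; group) fun e => F.z_ne (H16.conj_eq_one_iff.1 e)
    have : F.Z (rep k) := by rw [Z, ← isConj_cj c, e, isConj_cj]
    rw [← F.tb_pt hk, h] at this
    obtain rfl : k = 0 := (by decide : ∀ k < 8, tb 1 k = true → k = 0) k hk this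
    rw [show rep 0 = cz from rfl, F.fz, mem_cent1.1 hc, mul_inv_cancel_right] at e
    exact h2 e.symm
  · have : ∀ k ∈ [4, 5, 6], k < 8 ∧ pm PA1.M (rep k) = true := by decide +kernel
    exact F.cnt_ne aChk1 F.wc1 nd1 (this k hk).1 (this k hk).2 h
  · exact F.cnt_ne aChk2 F.wc2 nd2 (by norm_num) (by decide +kernel) h
end Fr
end
end H4.Hd
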