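import Cfsg.Agent.H4.Hd5
/-! Frames: construction of the elements of order three. -/
set_option autoImplicit false
set_option maxRecDepth 100000
set_option linter.style.haveILetI false
set_option linter.unusedSectionVars false
set_option linter.unusedVariables false
namespace H4.Hd
open H29 (force force_eq allL allL_spec anyL anyL_iff band band_iff)
open H27 (cl mem_cl cl_le)
open H28 (ev ev_cons ev_nil Rels)
open Subgroup Cfsg H16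
noncomputable section

variable {G : Type*} [Group G] {z : G}
def actK (M : ℕ) (W : List (ℕ × ℕ)) (Ks : List ℕ) (x : ℕ) : ℕ :=
  List.rec (motive := fun _ => ℕ) 0 (fun k _ ih => force (mu x (iv k)) fun v => cnd (pm M v) (mu (app W v o) k) ih) Ks
def WK : List (List ℕ) := [[], [0], [1], [2], [0, 1], [0, 2], [1, 0], [1, 2], [2, 0], [0, 1, 0], [0, 1, 2], [0, 2, 0], [1, 0, 2], [1, 2, 0], [2, 0, 1], [2, 0, 2], [0, 1, 0, 2], [0, 1, 2, 0], [0, 2, 0, 1], [0, 2, 0, 2], [1, 0, 2, 0], [1, 2, 0, 1], [1, 2, 0, 2], [2, 0, 1, 2]]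
def KS (b c a : ℕ) : List ℕ := WK.map (evc [b, c, a])
theorem d_chk : allL (fun x => Nat.beq (evf (fun i => cnd (Nat.beq i 0) (cj 0x1041241) fun v => app W2 v o) [0, 1, 0, 1] x) x)
    (cds PA2.L) = true := by decide +kernel
namespace Fr
/-- an element of order three acting as `W`, centralizing `b`, `c`, `a`, inverted by `d` -/
structure RR (F : Fr z) (P : Pat) (W : List (ℕ × ℕ)) (ρ : G) (b c a d : ℕ) : Prop where
  tri : Tri (F.S P) ρ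
  ac : F.AC ρ P W
  hb : F.Cj ρ b b
  hc : F.Cj ρ c c
  ha : F.Cj ρ a a
  vd : V d
  hd : F.f d * ρ * (F.f d)⁻¹ = ρ⁻¹
variable {F : Fr z} {r s ρ : G} {a b c d x y u e : ℕ} {P : Pat} {W : List (ℕ × ℕ)}
theorem Cj.l {a' : ℕ} (h : F.Cj r a b) (k : a = a' := by decide +kernel) : F.Cj r a' b := k ▸ h
theorem Cj.rt {b' : ℕ} (h : F.Cj r a b) (k : b = b' := by decide +kernel) : F.Cj r a b' := k ▸ h
theorem RR.bs (R : F.RR P W ρ b c a d) : ∀ x ∈ [b, c, a, d], V x ∧ F.f x ∈ Bs ρ := by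
  simp only [List.forall_mem_cons]
  exact ⟨⟨R.hb.1, mem_Bs R.hb.2.2⟩, ⟨R.hc.1, mem_Bs R.hc.2.2⟩, ⟨R.ha.1, mem_Bs R.ha.2.2⟩, ⟨R.vd, Or.inr R.hd⟩, by simp⟩
theorem RR.conj (R : F.RR P W ρ b c a d) (he : V e) (hm : F.f e ∈ F.S P) :
    F.RR P W (F.f e * ρ * (F.f e)⁻¹) (H4.Hd.cj e b) (H4.Hd.cj e c) (H4.Hd.cj e a) (H4.Hd.cj e d) := by
  have k : ∀ {x}, F.Cj ρ x x → F.Cj (F.f e * ρ * (F.f e)⁻¹) (H4.Hd.cj e x) (H4.Hd.cj e x) := fun h =>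
    ⟨he.cj h.1, he.cj h.1, by rw [F.cj he h.1]; nth_rw 2 [← h.2.2]; group⟩
  have T := R.tri
  refine ⟨⟨mul_mem (mul_mem (le_norm _ hm) T.nm) (inv_mem (le_norm _ hm)), T.ab, T.sq, T.sc, T.nt, fun x hx => ?_⟩,
    fun v h1 h2 => ?_, k R.hb, k R.hc, k R.ha, he.cj R.vd, ?_⟩
  · rw [T.fix hm hx, T.fix hm (conj_mem T.nm hx), T.tri x hx]
  · have := R.ac v h1 h2
    exact ⟨h1, this.2.1, by rw [T.fix hm ((F.fS h1).2 h2), this.2.2]⟩
  · rw [F.cj he R.vd, show (F.f e * ρ * (F.f e)⁻¹)⁻¹ = F.f e * ρ⁻¹ * (F.f e)⁻¹ by group, ← R.hd]; group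
theorem act_aux (h : F.AC ρ P W) {Ks : List ℕ} (hK : ∀ k ∈ Ks, F.Cj ρ k k) (hx : V x) (h0 : actK P.M W Ks x ≠ 0) :
    F.Cj ρ x (actK P.M W Ks x) := by
  induction Ks with
  | nil => exact absurd rfl h0
  | cons k Ks ih =>
    have e : actK P.M W (k :: Ks) x = if pm P.M (mu x (iv k)) = true then mu (app W (mu x (iv k)) o) k else actK P.M W Ks x := by
      rw [← cnd_eq]; rfl
    rw [e] at h0 ⊢
    split_ifs at h0 ⊢ with hm
    · have k1 := hK k List.mem_cons_self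
      have := (h _ (hx.mu k1.1.iv) hm).mu k1
      refine ⟨hx, this.2.1, ?_⟩
      rw [← this.2.2, F.mul (hx.mu k1.1.iv) k1.1, F.mul hx k1.1.iv, F.inv k1.1, inv_mul_cancel_right]
    · exact ih (fun y hy => hK y (List.mem_cons_of_mem _ hy)) h0
theorem RR.ks (R : F.RR P W ρ b c a d) : ∀ k ∈ KS b c a, F.Cj ρ k k := fun k hk => by
  obtain ⟨w, -, rfl⟩ := List.mem_map.1 hk
  refine Cj.evc ?_ w
  simp only [List.forall_mem_cons]
  exact ⟨R.hb, R.hc, R.ha, by simp⟩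
theorem RR.act (R : F.RR P W ρ b c a d) (x y : ℕ)
    (h : band (band (vb x) (Nat.blt 0 y)) (Nat.beq (actK P.M W (KS b c a) x) y) = true := by decide +kernel) : F.Cj ρ x y := by
  simp only [band_iff, Nat.beq_eq, Nat.blt_eq] at h
  exact h.2 ▸ act_aux R.ac R.ks (.of_vb h.1.1) (h.2 ▸ h.1.2.ne')
theorem RR.ac' (R : F.RR P W ρ b c a d) (P' : Pat) (W' : List (ℕ × ℕ))
    (h : band (allL (Nat.blt 0) (cds W')) (mkW P'.L (actK P.M W (KS b c a)) == W') = true) : F.AC ρ P' W' := by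
  simp only [band_iff, allL_iff, Nat.blt_eq, beq_iff_eq] at h
  refine AC.mk (fun x hx => act_aux R.ac R.ks (P'.V hx) (h.1 _ ?_).ne') h.2
  obtain ⟨p, hp, rfl⟩ := List.mem_map.1 hx
  rw [← h.2]
  exact List.mem_map.2 ⟨_, List.mem_map_of_mem hp, rfl⟩
theorem tests_ok (T : Tri (F.S PA2) r) {L : List ℕ} (h : ∀ x ∈ L, V x ∧ F.f x ∈ Bs r) (Ts : List (List ℕ)) :
    tests L Ts = true := List.all_eq_true.2 fun w _ => by
  obtain ⟨h1, h2⟩ := evc_ind (P := fun x => V x ∧ F.f x ∈ Bs r)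
    (fun a b h1 h2 => ⟨h1.1.mu h2.1, F.mul h1.1 h2.1 ▸ mul_mem h1.2 h2.2⟩) ⟨V.o, F.one ▸ one_mem _⟩ h w
  rw [force_eq, imp_iff, Nat.beq_eq]
  exact fun hm => (F.one_iff h1).1 (T.inf ((F.fS h1).2 hm) h2)
/-- conjugation modulo the pattern subgroup -/
def Md (F : Fr z) (P : Pat) (r : G) (x a : ℕ) : Prop := V x ∧ V a ∧ F.f a ∈ N[F.S P] ∧ r * F.f x * r⁻¹ * (F.f a)⁻¹ ∈ F.S P
theorem Md.mu (h : F.Md P r x a) (k : F.Md P r y b) : F.Md P r (mu x y) (mu a b) := by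
  refine ⟨h.1.mu k.1, h.2.1.mu k.2.1, F.mul h.2.1 k.2.1 ▸ mul_mem h.2.2.1 k.2.2.1, ?_⟩
  have := mul_mem h.2.2.2 (conj_mem h.2.2.1 k.2.2.2)
  rw [F.mul h.1 k.1, F.mul h.2.1 k.2.1]
  convert this using 1; group
theorem Md.o : F.Md P r o o := ⟨V.o, V.o, F.one ▸ one_mem _, by simp [F.one, one_mem]⟩
theorem Md.pm (h : F.Md P r x a) (hr : r ∈ N[F.S P]) : pm P.M a = true ↔ pm P.M x = true := by
  rw [← F.fS h.1, ← F.fS h.2.1]
  exact ⟨fun k => by simpa [mul_assoc] using conj_mem' hr (mul_mem h.2.2.2 k),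
    fun k => by simpa [mul_assoc] using mul_mem (inv_mem h.2.2.2) (conj_mem hr k)⟩
theorem Md.sq (h : F.Md P r x x) (hr : r ∈ N[F.S P]) : F.Md P (r * r) x x :=
  ⟨h.1, h.1, h.2.2.1, by convert mul_mem (conj_mem hr h.2.2.2) h.2.2.2 using 1; group⟩
theorem Md.cj (h : F.Md P r x x) (hP : aChk P = true) (k : F.Cj r a b) (hb : F.f b ∈ F.S P) :
    F.Cj r (H4.Hd.cj x a) (H4.Hd.cj x b) ∧ F.f (H4.Hd.cj x b) ∈ F.S P := by
  have k1 := conj_mem h.2.2.1 hb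
  refine ⟨⟨h.1.cj k.1, h.1.cj k.2.1, ?_⟩, F.cj h.1 k.2.1 ▸ k1⟩
  have := mem_cent.1 ((F.a_spec hP).2.1 k1) _ h.2.2.2
  rw [F.cj h.1 k.1, F.cj h.1 k.2.1, ← mul_inv_eq_iff_eq_mul.2 this, ← k.2.2]; group
theorem e35 (hr : r ∈ N[F.S PA2]) (h12 : F.Md PA2 r 0x1041441 0x1041441) (h23 : F.Md PA2 r 0x1061041 0x1061041) (h32 : F.Md PA2 r 0x1043041 0x1043041)
    (hu : F.Cj r cz u) : (u = 0x1141041 → F.Cj r 0x1041141 0x1841041 ∧ F.Cj r 0x10410c1 0x1441041) ∧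
      (u = 0x1141061 → F.Cj r 0x1041141 0x1841141 ∧ F.Cj r 0x10410c1 0x14410c1) := by
  obtain ⟨b, hm, k⟩ := Cj.ex (a := 0x1041141) hr (.of_vb (by decide +kernel)) (by decide +kernel)
  have hb := (F.fS k.2.1).2 hm
  have := PA2.all e35_chk k.2.1 hm
  simp only [imp_iff, band_iff, force_eq, Nat.beq_eq] at this
  have e1 : ∀ {a a' b : ℕ}, F.Cj r a b → a = a' → F.Cj r a' b := fun h e => e ▸ h
  obtain ⟨k1, m1⟩ := h32.cj aChk2 k hb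
  obtain ⟨k2, m2⟩ := h23.cj aChk2 k1 m1
  obtain ⟨k3, m3⟩ := h32.cj aChk2 k2 m2
  obtain ⟨k4, -⟩ := h23.cj aChk2 k3 m3
  obtain ⟨k5, m5⟩ := h23.cj aChk2 k hb
  have k6 := e1 (a' := 0x10410c1) (k.mu k5) (by decide +kernel)
  have k7 := (h12.cj aChk2 k6 (F.mul k.2.1 k5.2.1 ▸ mul_mem hb m5)).1
  have k8 := hu.uniq (e1 (k6.mu k7) (by decide +kernel))
  obtain ⟨c1, c2⟩ := this ⟨(e1 (h12.cj aChk2 k hb).1 (by decide +kernel)).uniq k, (e1 k1 (by decide +kernel)).uniq k,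
    (e1 (k.mu (k2.mu k4)) (by decide +kernel)).uniq Cj.o⟩
  exact ⟨fun e => by obtain ⟨a1, a2⟩ := c1 (k8 ▸ e); exact ⟨a1 ▸ k, a2 ▸ k6⟩,
    fun e => by obtain ⟨a1, a2⟩ := c2 (k8 ▸ e); exact ⟨a1 ▸ k, a2 ▸ k6⟩⟩

variable [Finite G]
theorem rr1 (h : F.Z (rep 1)) : ∃ r ∈ N[F.S PA2], F.Cj r cz 0x1141041 ∧ F.Cj r 0x1141041 0x1141061 := by
  obtain ⟨g, hg⟩ := isConj_iff.1 h
  have hz := (F.a_spec aChk2).2.2.1
  have v14 : V 0x1141041 := .of_vb (by decide +kernel)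
  obtain ⟨n, hn, e⟩ := F.ctl aChk2 F.wc2 {z} g (fun a ha => by rw [ha]; exact hz)
    (fun a ha => by rw [ha, hg]; exact F.fS' PA2 (by decide +kernel))
  have k : F.Cj n cz 0x1141041 := ⟨V.cz, v14, by rw [F.fz, ← e z rfl, hg]; rfl⟩
  obtain ⟨v0, n0⟩ := nm_of (F := F) (a := 0x1062041) PA2
  have c0 := (F.cm_iff v0 v14).1 (by decide +kernel)
  obtain ⟨a, ha, ea⟩ := F.sur (g := n⁻¹ * F.f 0x1062041 * n) (by
    rw [← k.2.2, F.fz] at c0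
    calc _ = n⁻¹ * (F.f 0x1062041 * (n * z * n⁻¹)) * n := by group
      _ = _ := by rw [c0]; group)
  have ka : F.Cj n a 0x1062041 := ⟨ha, v0, by rw [ea]; group⟩
  have na : F.f a ∈ N[F.S PA2] := ea ▸ mul_mem (mul_mem (inv_mem hn) n0) hn
  have h3 : mu (mu a a) a = o := ((ka.mu ka).mu ka).symm.l.uniq Cj.o
  have := allH_spec o3_chk ha
  simp only [force_eq, imp_iff, band_iff, bnot_iff, Nat.beq_eq, sq_eq, allL_iff] at this
  obtain ⟨b, hm, kb⟩ := Cj.ex (inv_mem hn) V.cz (by decide +kernel)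
  have := PA2.all (this ⟨h3, fun e => absurd ((e ▸ ka).uniq Cj.o) (by decide), fun x hx => ?_⟩) kb.2.1 hm
  · simp only [imp_iff, mem_iff, List.mem_cons, List.not_mem_nil, or_false] at this
    rcases this (H4.Hd.cm_iff.2 ((ka.symm.mu kb).uniq (kb.mu ka.symm).l)) with e | e | e | e <;> subst e
    · exact absurd (kb.symm.uniq Cj.o) (by decide)
    · exact absurd ((inv_inv n ▸ kb.symm).uniq k) (by decide)
    · obtain ⟨v5, n5⟩ := nm_of (F := F) (a := 0x1041241) PA2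
      exact ⟨_, mul_mem hn n5, (Cj.h v5 V.cz).eq.comp k, ((Cj.h v5 v14).rt (b' := 0x1141061)).comp (k.mu (inv_inv n ▸ kb.symm)).eq⟩
    · exact ⟨n, hn, k, (k.mu (inv_inv n ▸ kb.symm)).eq⟩
  · have v := PA2.V hx
    rw [← F.fS ((ha.mu v).mu (ha.mu ha)), F.mul (ha.mu v) (ha.mu ha), F.mul ha v,
      eq_inv_of_mul_eq_one_left (show F.f (mu a a) * F.f a = 1 by rw [← F.mul (ha.mu ha) ha, h3, F.one])]
    exact conj_mem na (F.mem_S_gen PA2 hx)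
theorem rr2 (hr : r ∈ N[F.S PA2]) (h1 : F.Cj r cz 0x1141041) (h2 : F.Cj r 0x1141041 0x1141061) : ∃ r ∈ N[F.S PA2],
    F.Cj r cz 0x1141041 ∧ F.Cj r 0x1141041 0x1141061 ∧ F.Md PA2 r 0x1041441 0x1041441 ∧ F.Md PA2 r 0x1061041 0x1061041 ∧ F.Md PA2 r 0x1043041 0x1043041 := by
  have LK' : ∀ k ∈ LK, (V k ∧ F.f k ∈ N[F.S PA2]) ∧ cm k 0x1141041 = true := fun k hk => by
    have := band_iff.1 (allL_spec LK_chk k hk)
    exact ⟨nm_of PA2 this.1, this.2⟩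
  have k : ∀ x ∈ LK, ∃ c ∈ LK, F.Md PA2 r x c := fun x hx => by
    have vx := (LK' x hx).1.1
    have c1 : Commute (r * F.f x * r⁻¹) (F.f 0x1141041) := by
      rw [← h1.2.2, F.fz]; exact Commute.conj (F.cen vx) r
    have c2 : Commute (r * F.f x * r⁻¹) (F.f 0x1141061) := by
      rw [← h2.2.2]; exact Commute.conj ((F.cm_iff vx h2.1).1 (LK' x hx).2) r
    obtain ⟨a, ha, e⟩ := F.sur (g := r * F.f x * r⁻¹) (by
      have := c1.mul_right c2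
      rwa [← F.mul h2.1 h2.2.1, show mu 0x1141041 0x1141061 = cz by decide +kernel, F.fz] at this)
    have := allH_spec k_chk ha
    simp only [imp_iff, force_eq, band_iff, mem_iff] at this
    obtain ⟨a1, a2⟩ := this ((F.cm_iff ha h2.1).2 (e ▸ c1))
    have vc := (LK' _ a1).1
    exact ⟨_, a1, vx, vc.1, vc.2, by rw [← e, ← F.inv vc.1, ← F.mul ha vc.1.iv]; exact (F.fS (ha.mu vc.1.iv)).2 a2⟩
  obtain ⟨a, ha, ka⟩ := k 0x1041441 (by decide)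
  obtain ⟨b, hb, kb⟩ := k 0x1061041 (by decide)
  obtain ⟨c, hc, kc⟩ := k 0x1043041 (by decide)
  have := allL_spec (allL_spec (allL_spec s4_chk a ha) b hb) c hc
  simp only [imp_iff, List.all_eq_true, beq2_iff, anyL_iff, band_iff, Nat.beq_eq] at this
  obtain ⟨p, hp, e1, e2, e3⟩ := this fun w _ => (evc2_ind (R := F.Md PA2 r) (fun _ _ _ _ => Md.mu) Md.o
    (.cons ka (.cons kb (.cons kc .nil))) w).pm hr
  obtain ⟨⟨vp, np⟩, cp⟩ := LK' p hp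
  have m : ∀ {x a}, x ∈ LK → F.Md PA2 r x a → H4.Hd.cj p x = a → F.Md PA2 ((F.f p)⁻¹ * r) x x := fun hx h e =>
    ⟨h.1, h.1, (LK' _ hx).1.2, by
      have := conj_mem' np h.2.2.2
      rw [← e, F.cj vp h.1] at this
      convert this using 1; group⟩
  have c1 : F.Cj (F.f p) 0x1141041 0x1141041 := ⟨h2.1, h2.1, mul_inv_eq_iff_eq_mul.2 ((F.cm_iff vp h2.1).1 cp)⟩
  have c2 : F.Cj (F.f p) cz cz := ⟨V.cz, V.cz, by rw [F.fz]; exact mul_inv_eq_iff_eq_mul.2 (F.cen vp)⟩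
  exact ⟨_, mul_mem (inv_mem np) hr, h1.comp c1.symm, h2.comp (c1.mu c2).symm.eq, m (by decide) ka e1, m (by decide) kb e2,
    m (by decide) kc e3⟩
theorem exists_rr (h : F.Z (rep 1)) : ∃ ρ b c a d, [b, c, a, d] ∈ CL ∧ F.RR PA2 W2 ρ b c a d := by
  obtain ⟨r, hr, h1, h2⟩ := rr1 h
  obtain ⟨r, hr, h1, h2, h12, h23, h32⟩ := rr2 hr h1 h2
  obtain ⟨a1, a2⟩ := (e35 hr h12 h23 h32 h1).1 rfl
  obtain ⟨a3, a4⟩ := (e35 (mul_mem hr hr) (h12.sq hr) (h23.sq hr) (h32.sq hr) (h1.comp h2)).2 rfl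
  have ac : F.AC r PA2 W2 := AC.of2 (.cons ⟨rfl, a1.cancel a3⟩ (.cons ⟨rfl, a1⟩ (.cons ⟨rfl, a2.cancel a4⟩
    (.cons ⟨rfl, a2⟩ (.cons ⟨rfl, h2⟩ (.cons ⟨rfl, h1⟩ .nil))))))
  have T := ac.tri hr aChk2 wChk2
  have l : ∀ {x}, F.Md PA2 r x x → ∃ a, V a ∧ pm PA2.M a = true ∧ F.Cj r (mu a x) (mu a x) := fun h => by
    obtain ⟨_, ha, e⟩ := T.lift1 h.2.2.2
    obtain ⟨a, v, m, rfl⟩ := F.mem_S.1 ha
    exact ⟨a, v, m, v.mu h.1, v.mu h.1, by rwa [F.mul v h.1]⟩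
  obtain ⟨b1, v1, m1, k1⟩ := l h23
  obtain ⟨b2, v2, m2, k2⟩ := l h32
  obtain ⟨b3, v3, m3, k3⟩ := l h12
  obtain ⟨v5, n5⟩ := nm_of (F := F) (a := 0x1041241) PA2
  have hd := tr_cent aChk2 (cj_word (xs := [F.f 0x1041241, r]) (by
    simp only [List.forall_mem_cons]
    exact ⟨tr_h v5 n5, ac.tr hr, tr_h v5 n5, ac.tr hr, by simp⟩)) d_chk
  obtain ⟨_, ha, k4⟩ := T.lift2 (d := F.f 0x1041241) (by
    rw [inv_eq_of_mul_eq_one_right (show F.f 0x1041241 * F.f 0x1041241 = 1 by rw [← F.mul v5 v5, F.one_iff (v5.mu v5)]; decide +kernel)]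
    simpa [ev_cons, ev_nil, mul_assoc] using hd)
  obtain ⟨b4, v4, m4, rfl⟩ := F.mem_S.1 ha
  have R : F.RR PA2 W2 r _ _ _ _ := ⟨T, ac, k1, k2, k3, v4.mu v5, by rwa [F.mul v4 v5]⟩
  have bs := R.bs
  have t : ∀ L : List ℕ, L ⊆ [mu b1 0x1061041, mu b2 0x1043041, mu b3 0x1041441, mu b4 0x1041241] → ∀ Ts, tests L Ts = true :=
    fun L hL => tests_ok T fun x hx => bs x (hL hx)
  have c1 := PA2.all cmp_chk v1 m1
  rw [force_eq, imp_iff] at c1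
  have c2 := PA2.all (c1 (t _ (by simp) _)) v2 m2
  rw [force_eq, imp_iff] at c2
  have c3 := PA2.all (c2 (t _ (by simp) _)) v3 m3
  rw [force_eq, imp_iff] at c3
  have c4 := PA2.all (c3 (t _ (by simp) _)) v4 m4
  rw [force_eq, imp_iff] at c4
  obtain ⟨e, he, c5⟩ := anyL_iff.1 (c4 (t _ (by simp) _))
  obtain ⟨C, hC, c6⟩ := List.any_eq_true.1 c5
  obtain ⟨ve, me⟩ := F.lst_S PA2 e (LA2_eq ▸ he)
  exact ⟨_, _, _, _, _, by rw [← beq_iff_eq.1 c6] at hC; exact hC, R.conj ve me⟩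
theorem RR.rev (R : F.rev.RR PA2 W2 ρ b c a d) : F.RR PA1 W1 ρ (trp b) (trp c) (trp a) (trp d) := by
  have ac : F.AC ρ PA1 W1 := AC.mk (t := fun x => trp (app W2 (trp x) o)) (fun x hx => by
    have := (R.ac _ (PA1.V hx).trp (allL_spec (f := fun x => pm PA2.M (trp x)) (by decide +kernel) x hx)).rev
    rwa [trp_trp (PA1.V hx)] at this) (by decide +kernel)
  refine ⟨ac.tri (ac.nm (by decide +kernel)) aChk1 wChk1, ac, R.hb.rev, R.hc.rev, R.ha.rev, R.vd.trp, ?_⟩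
  have : (F.f (trp d))⁻¹ * ρ * (F.f (trp d))⁻¹⁻¹ = ρ⁻¹ := R.hd
  nth_rw 1 [← inv_inv ρ, ← this]; group
end Fr
end
end H4.Hd
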