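import Cfsg.Agent.H4.Hd6
import Cfsg.Agent.H4.HdC2
/-! Frames: the amalgams and their relators. -/
set_option autoImplicit false
set_option maxRecDepth 100000
set_option linter.style.haveILetI false
set_option linter.unusedSectionVars false
set_option linter.unusedVariables false
namespace H4.Hd
open H29 (force force_eq allL allL_spec anyL anyL_iff band band_iff)
open H27 (cl mem_cl cl_le)
open H28 (ev ev_cons ev_nil Rels)
open Subgroup Cfsg H16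
noncomputable section

variable {G : Type*} [Group G] {z : G}
def acChk (P : Pat) (W : List (ℕ × ℕ)) (b c a : ℕ) (P' : Pat) (W' : List (ℕ × ℕ)) : Bool :=
  band (band (allL (Nat.blt 0) (cds W')) (mkW P'.L (actK P.M W (KS b c a)) == W')) (allL (fun x => pm P'.M (app W' x o)) (cds P'.L))
def cmW (P : Pat) (W W' : List (ℕ × ℕ)) : Bool :=
  allL (fun x => Nat.beq (app W (app W' x o) o) (app W' (app W x o) o)) (cds P.L)
def fxW (P : Pat) (W W' : List (ℕ × ℕ)) (u : ℕ) : Bool := force (app W u o) fun v => Nat.beq (app W' v o) v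
def cChk (b c a d b' c' a' d' : ℕ) (W21 W12 : List (ℕ × ℕ)) (w w' T : List ℕ) : Bool :=
  band (band (band (acChk PA2 W2 b c a PA1 W21) (acChk PA1 W1 b' c' a' PA2 W12)) (band (cmW PA1 W21 W1) (cmW PA2 W12 W2)))
    (allP PZ.L (fun e => force (mu a (iv (mu (evc [cj e b', cj e c', cj e a'] w') (cj e d')))) fun u =>
      force (mu (cj e a') (iv (mu (evc [b, c, a] w) d))) fun u' => band (band (pm PA1.M u) (pm PA2.M u'))
      (imp (band (fxW PA1 W1 W21 u) (fxW PA2 W2 W12 u')) ([cj e b', cj e c', cj e a', cj e d'] == T))) o)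
def atom (Ws : List (List (ℕ × ℕ))) (D : List (ℕ × ℕ)) (Cs : List ℕ) (i v : ℕ) : ℕ :=
  app (Ws.getD (D.getD i (0, o)).1 []) (mu (mu (D.getD i (0, o)).2 v) (Cs.getD i o)) o
def okChk (P : Pat) (C : List ℕ) (D : List (ℕ × ℕ)) (Cw : List (List ℕ)) (Cs ok : List ℕ) : Bool :=
  band (band (allL (nmP P) C) (Cw.map (evc C) == Cs)) (allL (fun i => band (band (Nat.blt i D.length) (Nat.blt (D.getD i (0, o)).1 3))
    (allP P.L (fun v => pm P.M (mu (mu (D.getD i (0, o)).2 v) (Cs.getD i o))) o)) ok)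
def afChk (P : Pat) (Ws : List (List (ℕ × ℕ))) (D : List (ℕ × ℕ)) (Cs ok w : List ℕ) : Bool :=
  band (allL (fun i => mem i ok) w) (allL (fun x => Nat.beq (evf (atom Ws D Cs) w x) x) (o :: cds P.L))
def hChk (D : List (ℕ × ℕ)) (w : List ℕ) : Bool :=
  band (allL (fun i => band (Nat.blt i D.length) (Nat.beq (D.getD i (0, o)).1 0)) w) (Nat.beq (evc (cds D) w) o)
def DD (d' d : ℕ) : List (ℕ × ℕ) := [(0, 0x1041441), (0, 0x1061041), (0, 0x1043041), (0, 0x1841041), (0, 0x10c1041), (0, 0x1041241), (1, d'), (2, d)]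
def rChk (b c a d b' c' a' d' : ℕ) (W21 W12 : List (ℕ × ℕ)) (Cw Cw' : List (List ℕ)) (Cs Cs' : List ℕ) (R : List (List ℕ)) : Bool :=
  band (band (band (acChk PA2 W2 b c a PA1 W21) (acChk PA1 W1 b' c' a' PA2 W12))
    (band (okChk PA2 [b, c, a, d] (DD d' d) Cw Cs [0, 1, 2, 3, 5, 6, 7]) (okChk PA1 [b', c', a', d'] (DD d' d) Cw' Cs' [0, 1, 3, 4, 5, 6, 7])))
    (R.all fun w => bor (hChk (DD d' d) w) (bor (afChk PA2 [PA2.L, W12, W2] (DD d' d) Cs [0, 1, 2, 3, 5, 6, 7] w)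
      (afChk PA1 [PA1.L, W1, W21] (DD d' d) Cs' [0, 1, 3, 4, 5, 6, 7] w)))
def xcChk (x y i j : ℕ) : Bool := band (band (band (Nat.beq (mu x x) o) (Nat.beq (mu y y) o))
  (band (bnot (Nat.beq x o)) (bnot (Nat.beq y o)))) (band (Nat.beq (cls x) i) (Nat.beq (cls y) j))
theorem c2_chk : allH (fun h => bnot (Nat.beq (mu h 0x10410c1) (mu 0x10490e1 h))) = true := by decide +kernel
theorem cL : cChk 0x1061041 0x1043041 0x1041441 0x1041241 0x1841041 0x10c1041 0x1041241 0x1041441 [(17, 0x1061041), (22, 0x14410c1), (7, 0x1441041), (15, 0x1049041), (20, 0x1141061), (5, 0x1141041)] [(23, 0x1841041), (8, 0x1041141), (22, 0x1541041), (7, 0x10410e1), (20, 0x1441041), (5, 0x10410c1)] [] [] [0x1841041, 0x10c1041, 0x1041241, 0x1041441] = true := by decide +kernel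
theorem rL : rChk 0x1061041 0x1043041 0x1041441 0x1041241 0x1841041 0x10c1041 0x1041241 0x1041441 [(17, 0x1061041), (22, 0x14410c1), (7, 0x1441041), (15, 0x1049041), (20, 0x1141061), (5, 0x1141041)] [(23, 0x1841041), (8, 0x1041141), (22, 0x1541041), (7, 0x10410e1), (20, 0x1441041), (5, 0x10410c1)] [[2], [0], [1], [], [], [3], [2], [3]] [[3], [], [], [0], [1], [2], [3], [2]] [0x1041441, 0x1061041, 0x1043041, 0x1041041, 0x1041041, 0x1041241, 0x1041441, 0x1041241] [0x1041441, 0x1041041, 0x1041041, 0x1841041, 0x10c1041, 0x1041241, 0x1041441, 0x1041241] H28.hdL_R = true := by decide +kernel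
theorem cM : cChk 0x1061041 0x1043041 0x1041441 0x1041241 0x1841061 0x10c1061 0x1049261 0x1041441 [(17, 0x1061041), (22, 0x14410c1), (7, 0x1441041), (15, 0x1049041), (20, 0x1141061), (5, 0x1141041)] [(23, 0x18410e1), (8, 0x15411e1), (22, 0x1541041), (7, 0x10410e1), (20, 0x1441041), (5, 0x10410c1)] [0, 2, 0, 2] [] [0x1841061, 0x10c9061, 0x1049241, 0x1041441] = true := by decide +kernel
theorem rM : rChk 0x1061041 0x1043041 0x1041441 0x1041241 0x1841061 0x10c9061 0x1049241 0x1041441 [(17, 0x1061041), (22, 0x14410c1), (7, 0x1441041), (15, 0x1049041), (20, 0x1141061), (5, 0x1141041)] [(23, 0x18410e1), (8, 0x15411e1), (22, 0x1541041), (7, 0x10410e1), (20, 0x1441041), (5, 0x10410c1)] [[2], [0], [1], [], [], [3], [2], [3]] [[3], [], [], [0], [1], [2], [3], [2]] [0x1041441, 0x1061041, 0x1043041, 0x1041041, 0x1041041, 0x1041241, 0x1041441, 0x1041241] [0x1041441, 0x1041041, 0x1041041,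 0x1841061, 0x10c9061, 0x1049241, 0x1041441, 0x1049241] H28.hdM_R = true := by decide +kernel
theorem cE : cChk 0x1061061 0x1043061 0x1041561 0x1041241 0x1841061 0x10c1061 0x1049261 0x1041441 [(17, 0x1161061), (22, 0x14410c1), (7, 0x1441041), (15, 0x15490e1), (20, 0x1141061), (5, 0x1141041)] [(23, 0x18410e1), (8, 0x15411e1), (22, 0x1541041), (7, 0x10410e1), (20, 0x1441041), (5, 0x10410c1)] [0, 2, 0, 2] [0, 2, 0, 2] [0x1841061, 0x10e1061, 0x10492e1, 0x1141441] = true := by decide +kernel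
theorem rE : rChk 0x1061061 0x1043061 0x1041561 0x1041241 0x1841061 0x10e1061 0x10492e1 0x1141441 [(17, 0x1161061), (22, 0x14410c1), (7, 0x1441041), (15, 0x15490e1), (20, 0x1141061), (5, 0x1141041)] [(23, 0x18410e1), (8, 0x15411e1), (22, 0x1541041), (7, 0x10410e1), (20, 0x1441041), (5, 0x10410c1)] [[2], [0], [1], [], [], [3], [2], [3]] [[3], [], [], [0], [1], [2], [3], [2]] [0x1041561, 0x1061061, 0x1043061, 0x1041041, 0x1041041, 0x1041241, 0x1041561, 0x1041241] [0x1141441, 0x1041041, 0x1041041, 0x1841061, 0x10e1061, 0x10492e1, 0x1141441, 0x10492e1] H28.hdE_R = true := by decide +kernel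

namespace Fr
variable {F : Fr z} {r s ρ σ : G} {a b c d a' b' c' d' x y u e i j k : ℕ} {P : Pat} {W W' W21 W12 : List (ℕ × ℕ)} {X : Subgroup G}
/-- fusion of classes in `X` -/
def Xc (F : Fr z) (X : Subgroup G) (i j : ℕ) : Prop := ∃ g ∈ X, g * F.f (rep i) * g⁻¹ = F.f (rep j)
theorem Xc.trans (h : F.Xc X i j) (h' : F.Xc X j k) : F.Xc X i k :=
  let ⟨g, h1, h2⟩ := h; let ⟨g', h3, h4⟩ := h'; ⟨g' * g, mul_mem h3 h1, by rw [← h4, ← h2]; group⟩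
theorem Xc.symm (h : F.Xc X i j) : F.Xc X j i := let ⟨g, h1, h2⟩ := h; ⟨g⁻¹, inv_mem h1, by rw [← h2]; group⟩
theorem Xc.Z (h : F.Xc X i j) (k : F.Z (rep i)) : F.Z (rep j) := let ⟨g, _, h2⟩ := h; k.trans (isConj_iff.2 ⟨g, h2⟩)
theorem Cj.xc (h : F.Cj r x y) (hr : r ∈ X) (hX : C1[z] ≤ X) (i j : ℕ) (k : xcChk x y i j = true := by decide +kernel) :
    F.Xc X i j := by
  simp only [xcChk, band_iff, bnot_iff, Nat.beq_eq] at k
  obtain ⟨⟨⟨k1, k2⟩, k3, k4⟩, rfl, rfl⟩ := k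
  obtain ⟨-, g, h1, e1⟩ := F.conj_rep h.1 k1 k3
  obtain ⟨-, g', h2, e2⟩ := F.conj_rep h.2.1 k2 k4
  exact ⟨g'⁻¹ * r * g, mul_mem (mul_mem (inv_mem (hX h2)) hr) (hX h1), by
    rw [show g'⁻¹ * r * g * _ * _ = g'⁻¹ * (r * (g * F.f (rep (cls x)) * g⁻¹) * r⁻¹) * g' by group, e1, h.2.2, ← e2]; group⟩
theorem AC.one : F.AC 1 P P.L := fun a ha hm => by rw [(P.spec.2.2 a ha hm).1]; exact Cj.one a ha
theorem cm_mem (hP : aChk P = true) (h : F.AC r P W) (h' : F.AC s P W') (hr : r ∈ N[F.S P]) (hs : s ∈ N[F.S P])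
    (k : cmW P W W' = true) : r * s * r⁻¹ * s⁻¹ ∈ F.S P := by
  have : (s * r)⁻¹ * (r * s) ∈ F.S P := (F.a_spec hP).1 (F.cent_S fun x hx => by
    have v := P.V hx
    have m := gen_pm P hx
    have k1 := (h' x v m).comp (h _ (h' x v m).2.1 ((h' x v m).pm hs m))
    have k2 := (h x v m).comp (h' _ (h x v m).2.1 ((h x v m).pm hr m))
    rw [Nat.beq_eq.mp (allL_spec k x hx)] at k1
    exact (mul_inv_eq_iff_eq_mul.1 (k1.comp k2.symm).2.2).symm)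
  convert conj_mem (mul_mem hs hr) this using 1; group
theorem con_fx (R : F.RR P W ρ b c a d) (h : F.AC s P W') (h1 : s * ρ * s⁻¹ = ρ) (h2 : F.Cj s x x) (w : List ℕ)
    (hm : pm P.M (mu x (iv (mu (H4.Hd.evc [b, c, a] w) d))) = true) : fxW P W W' (mu x (iv (mu (H4.Hd.evc [b, c, a] w) d))) = true := by
  have k : F.Cj ρ (H4.Hd.evc [b, c, a] w) (H4.Hd.evc [b, c, a] w) := Cj.evc (by
    simp only [List.forall_mem_cons]; exact ⟨R.hb, R.hc, R.ha, by simp⟩) w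
  have vd := k.1.mu R.vd
  have vu := h2.1.mu vd.iv
  have e : F.f (mu x (iv (mu (H4.Hd.evc [b, c, a] w) d))) = F.f x * (F.f (mu (H4.Hd.evc [b, c, a] w) d))⁻¹ := by
    rw [F.mul h2.1 vd.iv, F.inv vd]
  have := R.tri.con h1 h2.2.2 (d := F.f (mu (H4.Hd.evc [b, c, a] w) d)) (by
    rw [F.mul k.1 R.vd, show ∀ p q : G, p * q * ρ * (p * q)⁻¹ = p * (q * ρ * q⁻¹) * p⁻¹ from fun p q => by group, R.hd]
    nth_rw 2 [← cj_sw k.2.2]; group) (e ▸ (F.fS vu).2 hm)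
  have k1 := R.ac _ vu hm
  rw [← e, k1.2.2] at this
  rw [fxW, force_eq, Nat.beq_eq]
  exact (h _ k1.2.1 (k1.pm R.tri.nm hm)).uniq ⟨k1.2.1, k1.2.1, this⟩
def xs (F : Fr z) (rs : List G) (D : List (ℕ × ℕ)) : List G := D.map fun p => rs.getD p.1 1 * F.f p.2
theorem xs_get {rs : List G} {D : List (ℕ × ℕ)} (h : i < D.length) :
    (F.xs rs D).getD i 1 = rs.getD (D.getD i (0, o)).1 1 * F.f (D.getD i (0, o)).2 := by
  rw [List.getD_eq_getElem _ _ (by rwa [xs, List.length_map]), List.getD_eq_getElem _ _ h]; exact List.getElem_map _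
theorem h_word {rs : List G} {D : List (ℕ × ℕ)} (hD : ∀ x ∈ cds D, V x) {w : List ℕ} (h : hChk D w = true) :
    ev (F.xs (1 :: rs) D) w = 1 := by
  simp only [hChk, band_iff, allL_iff, Nat.blt_eq, Nat.beq_eq] at h
  refine Eq.trans ?_ ((F.evc hD w).2.symm.trans (h.2.symm ▸ F.one))
  obtain ⟨h, -⟩ := h
  induction w with
  | nil => rfl
  | cons i w ih =>
    obtain ⟨h1, h2⟩ := h i List.mem_cons_self
    rw [ev_cons, ev_cons, ih fun j hj => h j (List.mem_cons_of_mem _ hj), xs_get h1, h2, List.getD_cons_zero, one_mul,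
      List.getD_eq_getElem _ _ h1, List.getD_eq_getElem _ _ (by simpa [cds] using h1)]
    simp [cds]

variable [Finite G]
theorem RR.ac2 (R : F.RR P W ρ b c a d) {P' : Pat} (h : acChk P W b c a P' W' = true) : F.AC ρ P' W' ∧ ρ ∈ N[F.S P'] :=
  have k := R.ac' P' W' (band_iff.1 h).1
  ⟨k, k.nm (band_iff.1 h).2⟩
theorem comm_step (R : F.RR PA2 W2 ρ b c a d) (R' : F.RR PA1 W1 σ b' c' a' d') {w w' : List ℕ} {t1 t2 t3 t4 : ℕ}
    (h : cChk b c a d b' c' a' d' W21 W12 w w' [t1, t2, t3, t4] = true) : ∃ σ, F.RR PA1 W1 σ t1 t2 t3 t4 ∧ ρ * σ * ρ⁻¹ = σ := by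
  simp only [cChk, band_iff] at h
  obtain ⟨⟨⟨h1, h2⟩, h3, h4⟩, h5⟩ := h
  obtain ⟨a1, n1⟩ := R.ac2 h1
  obtain ⟨a2, n2⟩ := R'.ac2 h2
  have m1 := cm_mem aChk1 a1 R'.ac n1 R'.tri.nm h3
  have m2 : ρ * σ * ρ⁻¹ * σ⁻¹ ∈ F.S PA2 := by
    convert inv_mem (cm_mem aChk2 a2 R.ac n2 R.tri.nm h4) using 1; group
  have u1 := conj_mem n1 m1
  have u2 := conj_mem R.tri.nm m2
  obtain ⟨e, ve, me, ee⟩ := F.mem_S.1 (conj_mem R'.tri.nm u1)
  have e2 : F.f e ∈ F.S PA2 := ee ▸ conj_mem n2 u2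
  have R1 := R'.conj ve ((F.fS ve).2 me)
  have eq : F.f e * σ * (F.f e)⁻¹ = ρ * (ρ * σ * ρ⁻¹ * σ⁻¹) * ρ⁻¹ * σ := by
    rw [R'.tri.conj_eq ((F.fS ve).2 me), ee, R'.tri.s3 u1]
  have cm : ρ * (F.f e * σ * (F.f e)⁻¹) * ρ⁻¹ = F.f e * σ * (F.f e)⁻¹ := by
    rw [eq]; nth_rw 2 [← R.tri.tri _ m2]; group
  have a3 : F.AC (F.f e * σ * (F.f e)⁻¹) PA2 W12 := fun v hv hm => by
    have k := a2 v hv hm
    refine ⟨hv, k.2.1, ?_⟩
    have := R.tri.cm u2 ((F.fS k.2.1).2 (k.pm n2 hm))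
    rw [eq, ← mul_inv_eq_iff_eq_mul.2 this, ← k.2.2]; group
  have := PZ.all h5 ve (imp_iff.1 (PA1.all Z_inf ve me) ((F.fS ve).1 e2))
  simp only [force_eq, band_iff, imp_iff, beq_iff_eq, List.cons.injEq, and_true] at this
  obtain ⟨e1, e2, e3, e4⟩ := this.2 ⟨con_fx R1 a1 cm R.ha w' this.1.1, con_fx R a3 (cj_sw cm) R1.ha w this.1.2⟩
  exact ⟨_, e1 ▸ e2 ▸ e3 ▸ e4 ▸ R1, cm⟩
theorem af_word (hP : aChk P = true) (R : F.RR P W ρ b c a d) {r1 r2 : G} {W1 W2 : List (ℕ × ℕ)} {D : List (ℕ × ℕ)}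
    (h1 : F.AC r1 P W1 ∧ r1 ∈ N[F.S P]) (h2 : F.AC r2 P W2 ∧ r2 ∈ N[F.S P]) (b1 : r1 ∈ Bs ρ) (b2 : r2 ∈ Bs ρ)
    (hD : ∀ x ∈ cds D, V x) {Cw : List (List ℕ)} {Cs ok w : List ℕ} (k : okChk P [b, c, a, d] D Cw Cs ok = true)
    (h : afChk P [P.L, W1, W2] D Cs ok w = true) : ev (F.xs [1, r1, r2] D) w = 1 := by
  simp only [okChk, afChk, band_iff, allL_iff, Nat.blt_eq, Nat.beq_eq, mem_iff, beq_iff_eq] at k h
  obtain ⟨⟨k1, k2⟩, k3⟩ := k
  have hC : ∀ x ∈ Cs, V x ∧ F.f x ∈ N[F.S P] ⊓ Bs ρ := fun x hx => by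
    obtain ⟨w, -, rfl⟩ := List.mem_map.1 (k2 ▸ hx)
    exact evc_ind (P := fun x => V x ∧ F.f x ∈ N[F.S P] ⊓ Bs ρ)
      (fun a b h1 h2 => ⟨h1.1.mu h2.1, F.mul h1.1 h2.1 ▸ mul_mem h1.2 h2.2⟩) ⟨V.o, F.one ▸ one_mem _⟩
      (fun x hx => ⟨(R.bs x hx).1, (nm_of P (k1 x hx)).2, (R.bs x hx).2⟩) w
  have hr : ∀ j < 3, F.AC ([1, r1, r2].getD j 1) P ([P.L, W1, W2].getD j []) ∧ [1, r1, r2].getD j 1 ∈ N[F.S P] ⊓ Bs ρ := by
    intro j hj; interval_cases j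
    exacts [⟨AC.one, one_mem _⟩, ⟨h1.1, h1.2, b1⟩, ⟨h2.1, h2.2, b2⟩]
  have T := Tr.word (R := fun g v v' => ∃ b ∈ N[F.S P] ⊓ Bs ρ, g * F.f v = F.f v' * b) (fun v _ => ⟨1, one_mem _, by simp⟩)
    (fun g g' a b c ⟨p, p1, p2⟩ ⟨q, q1, q2⟩ => ⟨q * p, mul_mem q1 p1, by rw [mul_assoc, p2, ← mul_assoc, q2, mul_assoc]⟩)
    (P := P) (xs := F.xs [1, r1, r2] D) (ts := atom [P.L, W1, W2] D Cs) (w := w) fun i hi v hv hm => by
      obtain ⟨⟨i1, i2⟩, i3⟩ := k3 i (h.1 i hi)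
      have vh : V (D.getD i (0, o)).2 := hD _ (List.mem_map_of_mem (List.getD_eq_getElem _ _ i1 ▸ List.getElem_mem i1))
      obtain ⟨vc, mc⟩ := getD_ind (P := fun x => V x ∧ F.f x ∈ N[F.S P] ⊓ Bs ρ) ⟨V.o, F.one ▸ one_mem _⟩ hC i
      have m := P.all i3 hv hm
      have q := (hr _ i2).1 _ ((vh.mu hv).mu vc) m
      refine ⟨q.2.1, q.pm (hr _ i2).2.1 m, _, mul_mem (hr _ i2).2 (inv_mem mc), ?_⟩
      rw [xs_get i1, atom, ← q.2.2, F.mul (vh.mu hv) vc, F.mul vh hv]; group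
  generalize ev (F.xs [1, r1, r2] D) w = g at T
  obtain ⟨-, -, p, p1, p2⟩ := T o V.o P.spec.1
  rw [h.2 o List.mem_cons_self, F.one, mul_one, one_mul] at p2
  subst p2
  refine R.tri.inf ((F.a_spec hP).1 (F.cent_S fun x hx => ?_)) p1.2
  obtain ⟨-, -, q, q1, q2⟩ := T x (P.V hx) (gen_pm P hx)
  rw [h.2 x (List.mem_cons_of_mem _ hx)] at q2
  have m := F.mem_S_gen P hx
  have := R.tri.inf (mul_mem (inv_mem m) (conj_mem p1.1 m)) (by
    rw [q2, mul_assoc, inv_mul_cancel_left]; exact mul_mem q1.2 (inv_mem p1.2))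
  rw [inv_mul_eq_one, eq_mul_inv_iff_mul_eq] at this
  exact this
theorem dd_V (h : V d) (h' : V d') : ∀ x ∈ cds (DD d' d), V x := by
  have := Gn_V
  simp only [Gn, cds, DD, List.map, List.forall_mem_cons] at this ⊢
  exact ⟨this.1, this.2.1, this.2.2.1, this.2.2.2.1, this.2.2.2.2.1, this.2.2.2.2.2.1, h', h, by simp⟩
theorem rels (R : F.RR PA2 W2 ρ b c a d) (R' : F.RR PA1 W1 σ b' c' a' d') (hc : ρ * σ * ρ⁻¹ = σ) {Cw Cw' Rl : List (List ℕ)}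
    {Cs Cs' : List ℕ} (h : rChk b c a d b' c' a' d' W21 W12 Cw Cw' Cs Cs' Rl = true) : Rels (F.xs [1, σ, ρ] (DD d' d)) Rl := by
  simp only [rChk, band_iff, List.all_eq_true, bor_iff] at h
  obtain ⟨⟨⟨h1, h2⟩, h3, h4⟩, h5⟩ := h
  have v := dd_V R.vd R'.vd
  exact fun w hw => (h5 w hw).elim (h_word v) fun k => k.elim
    (af_word aChk2 R (R'.ac2 h2) ⟨R.ac, R.tri.nm⟩ (mem_Bs hc) (mem_Bs (by group)) v h3)
    (af_word aChk1 R' ⟨R'.ac, R'.tri.nm⟩ (R.ac2 h1) (mem_Bs (by group)) (mem_Bs (cj_sw hc)) v h4)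
theorem xs_gen {rs : List G} {D : List (ℕ × ℕ)} (hD : ∀ x ∈ cds D, V x) (h : ∀ x ∈ Gn, (0, x) ∈ D) :
    C1[z] ≤ cl (F.xs (1 :: rs) D) ∧ ∀ p ∈ D, (1 :: rs).getD p.1 1 ∈ cl (F.xs (1 :: rs) D) := by
  have k : C1[z] ≤ cl (F.xs (1 :: rs) D) := fun g hg => F.mem_of_gens (fun x hx => by
    rw [← one_mul (F.f x)]
    exact mem_cl (List.mem_map_of_mem (f := fun p : ℕ × ℕ => (1 :: rs).getD p.1 1 * F.f p.2) (h x hx))) (mem_cent1.1 hg)
  exact ⟨k, fun p hp => (mul_mem_cancel_right (k (mem_cent1.2 (F.cen (hD _ (List.mem_map_of_mem hp)))))).1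
    (mem_cl (List.mem_map_of_mem (f := fun p : ℕ × ℕ => (1 :: rs).getD p.1 1 * F.f p.2) hp))⟩
theorem exists_rr' (h : F.Z (rep 1)) : ∃ ρ, F.RR PA2 W2 ρ 0x1061041 0x1043041 0x1041441 0x1041241 ∨
    F.RR PA2 W2 ρ 0x1061061 0x1043061 0x1041561 0x1041241 := by
  obtain ⟨ρ, b, c, a, d, hC, R⟩ := exists_rr h
  simp only [CL, List.mem_cons, List.cons.injEq, List.not_mem_nil, or_false, and_true] at hC
  have t := mem_top ρ
  rcases hC with ⟨rfl, rfl, rfl, rfl⟩ | ⟨rfl, rfl, rfl, rfl⟩ | ⟨rfl, rfl, rfl, rfl⟩ | ⟨rfl, rfl, rfl, rfl⟩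
  · exact ⟨ρ, .inl R⟩
  · exact absurd (((R.act 0x15410c1 0x11410e1).xc t le_top 5 3).Z (((R.act 0x1161061 0x1061061).xc t le_top 6 5).Z
      (((R.act 0x1049041 0x15490e1).xc t le_top 1 6).Z h))) F.not_w
  · have v : V 0x10c1041 := .of_vb (by decide +kernel)
    have k1 := ((((R.act cz 0x1141041).comp (Cj.h v (.of_vb (by decide +kernel))).rt).comp (R.act 0x1149041 0x1149061)).comp
      (Cj.h v (.of_vb (by decide +kernel))).rt).comp (R.act 0x1141061 cz)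
    have k2 := ((((R.act 0x10410c1 0x1441041).comp (Cj.h v (.of_vb (by decide +kernel))).rt).comp (R.act 0x1461041 0x15610e1)).comp
      (Cj.h v (.of_vb (by decide +kernel))).rt).comp (R.act 0x15490e1 0x10490e1)
    obtain ⟨g, hg, e⟩ := F.sur (mul_inv_eq_iff_eq_mul.1 (F.fz ▸ k1.2.2))
    refine absurd ?_ (bnot_iff.1 (allH_spec c2_chk hg))
    rw [Nat.beq_eq, ← F.eq_iff (hg.mu k2.1) (k2.2.1.mu hg), F.mul hg k2.1, F.mul k2.2.1 hg, e, ← k2.2.2, inv_mul_cancel_right]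
  · exact ⟨ρ, .inr R⟩
end Fr
end
end H4.Hd
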