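import Cfsg.Agent.H4.Hd7
/-! Frames: computations for the parabolic case. -/
set_option autoImplicit false
set_option maxRecDepth 100000
set_option linter.style.haveILetI false
set_option linter.unusedSectionVars false
set_option linter.unusedVariables false
namespace H4.Hd
open H29 (force force_eq allL allL_spec anyL anyL_iff band band_iff)
open H27 (cl mem_cl cl_le)
open H28 (ev ev_cons ev_nil Rels)
open Subgroup Cfsg H16
noncomputable section
def D7 : List (ℕ × ℕ) := [(0, 0x1041441), (0, 0x1061041), (0, 0x1043041), (0, 0x1841041), (0, 0x10c1041), (0, 0x1041241), (2, 0x1041241)]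
def WU : List (ℕ × ℕ) := [(10, 0x1041441), (15, 0x1049041), (20, 0x1141061), (5, 0x1141041)]
def tsU (i v : ℕ) : ℕ := app (cnd (Nat.beq i 6) WU PU.L) (cj (H29.lgetD o (cds D7) i) v) o
theorem p1 : okChk PA2 [0x1061041, 0x1043041, 0x1041441, 0x1041241] D7 [[2], [0], [1], [], [], [3], [3]] [0x1041441, 0x1061041, 0x1043041, 0x1041041, 0x1041041, 0x1041241, 0x1041241] [0, 1, 2, 3, 5, 6] = true := by decide +kernel
theorem p2 : (H28.hdP_R.all fun w => bor (hChk D7 w) (bor (afChk PA2 [PA2.L, PA2.L, W2] D7 [0x1041441, 0x1061041, 0x1043041, 0x1041041, 0x1041041, 0x1041241, 0x1041241] [0, 1, 2, 3, 5, 6] w)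
    (w == H28.pwW 5 [1, 2, 4, 3, 6]))) = true := by decide +kernel
theorem p3 : acChk PA2 W2 0x1061041 0x1043041 0x1041441 PU WU = true := by decide +kernel
theorem p4 : allL (fun x => Nat.beq (evf tsU (H28.pwW 5 [1, 2, 4, 3, 6]) x) x) (cds PU.L) = true := by decide +kernel
theorem p5 : allP PU.L (fun a => imp (Nat.beq (evf tsU [1, 2, 4, 3, 6] a) a) (Nat.beq a o)) o = true := by decide +kernel
theorem p6 : allH (fun a => imp (Nat.beq (sq a) o) (imp (Nat.blt (cls a) 2) (pm PU.M a))) = true := by decide +kernel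
theorem p7 : allP PU.L (fun a => band (bor (Nat.beq a o) (Nat.blt (cls a) 2)) (mem (cj 0x10410c1 a) [a, mu a cz])) o = true := by
  decide +kernel
def LU : List ℕ := [0x10410c1, 0x1041141, 0x1041241, 0x10411c1, 0x10412c1, 0x1041341, 0x10413c1]
def uT (b : ℕ) : Bool := force (Nat.land b PU.M) fun c => band (mem c LU) (pm PU.M (mu b c))
theorem p9 : allL (fun c => band (vb c) (band (Nat.beq (mu c c) o) (bnot (pm PU.M c)))) LU = true := by decide +kernel
theorem p8 : allH (fun a => bor (pm PU.M a) (bor (uT a) (force (iv a) fun a' =>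
    anyL (fun x => force (mu (mu (mu x a) x) a') uT) [0x10410c1, 0x1041141, 0x1041241]))) = true := by decide +kernel
theorem p10 : H29.allR (fun p => imp (band (band (tb p 0) (tb p 1)) (bnot (anyL (tb p) [2, 3, 4, 5, 6])))
    (bor (Nat.beq p 131) (bnot (tb p 7)))) 0 256 = true := by decide +kernel
end
end H4.Hd
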