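import Cfsg.Agent.H4.UG1
import Cfsg.Agent.H6.WR
import Cfsg.Agent.H2.FiltG

/-! Recognition of the simple group of order 6048 from an amalgam. -/

set_option autoImplicit false
set_option maxRecDepth 100000

namespace H4.UG

open H27 H28 H29 Cfsg Subgroup

universe u
variable {G : Type u} [Group G] {S : Subgroup G} {x y t c d : G}

/-- generators of the amalgam -/
structure Am (S : Subgroup G) (x y t c d : G) : Prop where
  w : H6.WR S 0 x y t
  c3 : c ^ 3 = 1
  cx : c * x * c⁻¹ = y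
  cy : c * y * c⁻¹ = (x * y)⁻¹
  tc : t * c * t * c = 1
  d3 : d ^ 3 = 1
  dz : d * (x * y) = x * y * d
  di : d * (x * y⁻¹) * d⁻¹ = t * x * x
  dj : d * (t * x * x) * d⁻¹ = x * y⁻¹ * (t * x * x)
  xd : x * d * x⁻¹ = x * y⁻¹ * (t * x * x) * d⁻¹

theorem Am.rels (h : Am S x y t c d) : Rels [x, x⁻¹, y, y⁻¹, t, c, c⁻¹, d, d⁻¹] ugR0 := by
  have x4 : x ^ 4 = 1 := by have := pow_orderOf_eq_one x; rwa [h.w.ox] at this
  have y4 : y ^ 4 = 1 := by have := pow_orderOf_eq_one y; rwa [h.w.oy] at this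
  have ti := h.w.tinv
  simp only [Rels, ugR0, List.forall_mem_cons, ev_cons, ev_nil, List.getD_cons_zero,
    List.getD_cons_succ, mul_one, mul_inv_cancel, inv_mul_cancel, true_and]
  refine ⟨h.w.tt, ?_, ?_, ?_, ?_, ?_, ?_, ?_, ?_, ?_, ?_, ?_, ?_, ?_, by simp⟩
  · rw [← x4]; simp only [pow_succ, pow_zero, one_mul, mul_assoc]
  · rw [← y4]; simp only [pow_succ, pow_zero, one_mul, mul_assoc]
  · rw [← mul_assoc, h.w.xy.eq]; group
  · have := h.w.conj
    rw [ti] at this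
    rw [show t * (x * (t * y⁻¹)) = t * x * t * y⁻¹ by group, this, mul_inv_cancel]
  · rw [← h.c3]; simp only [pow_succ, pow_zero, one_mul, mul_assoc]
  · rw [← h.cx]; group
  · rw [← mul_assoc, ← mul_assoc, h.cy]; group
  · rw [← h.tc]; simp only [mul_assoc]
  · rw [← h.d3]; simp only [pow_succ, pow_zero, one_mul, mul_assoc]
  · rw [show d * (x * (y * (d⁻¹ * (y⁻¹ * x⁻¹)))) = d * (x * y) * d⁻¹ * (y⁻¹ * x⁻¹) by group, h.dz]
    group
  · rw [show d * (x * (y⁻¹ * (d⁻¹ * (x⁻¹ * (x⁻¹ * t))))) =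
      d * (x * y⁻¹) * d⁻¹ * (x⁻¹ * (x⁻¹ * t)) by group, h.di, ← h.w.tt]
    group
  · rw [show d * (t * (x * (x * (d⁻¹ * (x⁻¹ * (x⁻¹ * (t * (y * x⁻¹)))))))) =
      d * (t * x * x) * d⁻¹ * (x⁻¹ * x⁻¹ * t * y * x⁻¹) by group, h.dj,
      show x * y⁻¹ * (t * x * x) * (x⁻¹ * x⁻¹ * t * y * x⁻¹) = x * y⁻¹ * (t * t) * y * x⁻¹ by group,
      h.w.tt]
    group
  · rw [show x * (d * (x⁻¹ * (d * (x⁻¹ * (x⁻¹ * (t * (y * x⁻¹))))))) =
      x * d * x⁻¹ * d * (x⁻¹ * x⁻¹ * t * y * x⁻¹) by group, h.xd,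
      show x * y⁻¹ * (t * x * x) * d⁻¹ * d * (x⁻¹ * x⁻¹ * t * y * x⁻¹) =
        x * y⁻¹ * (t * t) * y * x⁻¹ by group, h.w.tt]
    group

theorem nrm_cl [Finite G] {s : Set G} {g : G} (h : ∀ a ∈ s, g * a * g⁻¹ ∈ closure s) :
    g ∈ normalizer ((closure s : Subgroup G) : Set G) :=
  mem_normalizer_fintype fun n hn => by
    have : (closure s).map (MulAut.conj g).toMonoidHom ≤ closure s := by
      rw [MonoidHom.map_closure, closure_le]
      rintro _ ⟨a, ha, rfl⟩
      exact h a ha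
    exact this ⟨n, hn, rfl⟩

theorem Am.no [Finite G] (h : Am S x y t c d) {W : List (List ℕ)} {F : ℕ → ℕ} {m : ℕ}
    {J : List ℕ} (k : H4.Tc.fixChk F (W ++ ugR0) [0, 1, 2, 3, 4, 5, 6] m J 7 = true)
    (r : Rels [x, x⁻¹, y, y⁻¹, t, c, c⁻¹, d, d⁻¹] W) : False := by
  set U := closure ({x, y} : Set G)
  have hx : x ∈ U := subset_closure (by simp)
  have hy : y ∈ U := subset_closure (by simp)
  have ht : t ∈ normalizer (U : Set G) := nrm_cl (by
    rintro a (rfl | rfl)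
    · rw [h.w.conj]; exact hy
    · have e : ∀ z : G, t * (t * z * t⁻¹) * t⁻¹ = z := fun z => by
        rw [h.w.tinv, show t * (t * z * t) * t = t * t * z * (t * t) by group, h.w.tt]; group
      have := e x
      rw [h.w.conj] at this
      rw [this]; exact hx)
  have hc : c ∈ normalizer (U : Set G) := nrm_cl (by
    rintro a (rfl | rfl)
    · rw [h.cx]; exact hy
    · rw [h.cy]; exact inv_mem (mul_mem hx hy))
  have hd : d ∈ normalizer (U : Set G) :=
    H4.Tc.mem_of_chk k (by simp) (r.append h.rels) (H := normalizer (U : Set G)) (by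
      simp only [List.forall_mem_cons, List.getD_cons_zero, List.getD_cons_succ]
      exact ⟨le_normalizer hx, inv_mem (le_normalizer hx), le_normalizer hy,
        inv_mem (le_normalizer hy), ht, hc, inv_mem hc, by simp⟩)
  have h1 := (mem_normalizer_iff.1 hd _).1 (mul_mem hx (inv_mem hy))
  rw [h.di] at h1
  have h2 : t ∈ U := by simpa using mul_mem (mul_mem h1 (inv_mem hx)) (inv_mem hx)
  exact h.w.et_not_mem_U 0 0 (h.w.t_eq ▸ h2)

theorem Am.seven [Finite G] (h : Am S x y t c d) (hs : ∀ g : G, g ^ 7 = 1 ∨ g ^ 8 = 1 ∨ g ^ 12 = 1) :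
    Rels [x, x⁻¹, y, y⁻¹, t, c, c⁻¹, d, d⁻¹] ug_R := by
  rw [ug_R_eq]
  have e : ∀ {l : List (List ℕ)} {w : List ℕ} {xs : List G}, ev xs w = 1 → Rels xs l →
      Rels xs (w :: l) := fun a b => List.forall_mem_cons.2 ⟨a, b⟩
  have n : ∀ {xs : List G}, Rels xs [] := fun _ h => by cases h
  rcases hs (c * d) with a | a | a
  · refine e ?_ h.rels
    rw [← a]; simp only [ugW7, ev_cons, ev_nil, List.getD_cons_zero, List.getD_cons_succ,
      pow_succ, pow_zero, one_mul, mul_one, mul_assoc]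
  · refine (h.no uga_chk (e ?_ n)).elim
    rw [← a]; simp only [ev_cons, ev_nil, List.getD_cons_zero, List.getD_cons_succ,
      pow_succ, pow_zero, one_mul, mul_one, mul_assoc]
  rcases hs (c * d * x) with b | b | b
  · refine (h.no ugb_chk (e ?_ n)).elim
    rw [← b]; simp only [ev_cons, ev_nil, List.getD_cons_zero, List.getD_cons_succ,
      pow_succ, pow_zero, one_mul, mul_one, mul_assoc]
  · refine (h.no ugc_chk (e ?_ n)).elim
    rw [← b]; simp only [ev_cons, ev_nil, List.getD_cons_zero, List.getD_cons_succ,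
      pow_succ, pow_zero, one_mul, mul_one, mul_assoc]
  · refine (h.no ugd_chk (e ?_ (e ?_ n))).elim
    · rw [← a]; simp only [ev_cons, ev_nil, List.getD_cons_zero, List.getD_cons_succ,
        pow_succ, pow_zero, one_mul, mul_one, mul_assoc]
    · rw [← b]; simp only [ev_cons, ev_nil, List.getD_cons_zero, List.getD_cons_succ,
        pow_succ, pow_zero, one_mul, mul_one, mul_assoc]

theorem Am.c_ne (h : Am S x y t c d) : c * (x * y) ≠ x * y * c := fun e => by
  have h1 : c * (x * y) * c⁻¹ = y * (x * y)⁻¹ := by rw [← h.cy, ← h.cx]; group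
  rw [e, mul_inv_cancel_right] at h1
  have h2 : H6.wel x y 2 1 = 1 := by
    have : x * (x * y) = 1 := by rw [h1]; group
    rw [← this, H6.wel, zpow_two, zpow_one, mul_assoc]
  have := (h.w.eq_one_iff.1 h2).2
  norm_num at this

theorem no672 [Finite G] (hs : ∀ g : G, g ^ 7 = 1 ∨ g ^ 8 = 1 ∨ g ^ 12 = 1) :
    Nat.card G ≠ 672 := fun h => by
  have : Fact (Nat.Prime 7) := ⟨by norm_num⟩
  obtain ⟨P⟩ : Nonempty (Sylow 7 G) := inferInstance
  have hP := H2.sm_sylow_prime (by rw [h]; norm_num) (by rw [h]; norm_num) P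
  have h1 := H2.sm_card_eq P
  have h2 := H2.sm_e_dvd P hP
  have h3 := card_sylow_modEq_one 7 G
  have h4 : ∀ r : ℕ, r.Prime → r ≠ 7 → ¬ r ∣ Nat.card (centralizer ((P : Subgroup G) : Set G)) := by
    intro r hr h7 hd
    have := Fact.mk hr
    obtain ⟨a, ha⟩ := exists_prime_orderOf_dvd_card' (G := (P : Subgroup G)) 7 (by rw [hP])
    obtain ⟨g, hg⟩ := exists_prime_orderOf_dvd_card' r hd
    rw [← orderOf_coe] at ha hg
    have c : Commute (a : G) g := mem_centralizer_iff.1 g.2 a a.2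
    have k := c.orderOf_mul_eq_mul_orderOf_of_coprime
      (by rw [ha, hg]; exact (Nat.coprime_primes (by norm_num) hr).2 h7.symm)
    rw [ha, hg] at k
    have := hr.two_le
    rcases hs (a * g) with e | e | e <;> rw [← orderOf_dvd_iff_pow_eq_one, k] at e
    · have := Nat.le_of_dvd (by norm_num) e; omega
    · have := (Dvd.intro _ rfl).trans e; omega
    · have := (Dvd.intro _ rfl).trans e; omega
  have h5 : Nat.card (centralizer ((P : Subgroup G) : Set G)) ∣ 7 := by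
    have h6 : Nat.card (centralizer ((P : Subgroup G) : Set G)) ∣ 7 * (2 ^ 5 * 3) :=
      (card_subgroup_dvd_card _).trans (by rw [h]; norm_num)
    exact Nat.Coprime.dvd_of_dvd_mul_right (Nat.Coprime.mul_right (Nat.Coprime.pow_right _
      ((Nat.prime_two.coprime_iff_not_dvd.2 (h4 2 Nat.prime_two (by norm_num))).symm))
      (Nat.prime_three.coprime_iff_not_dvd.2 (h4 3 Nat.prime_three (by norm_num))).symm) h6
  have h6 := card_dvd_of_le (H2.sm_le_cent hP)
  rw [hP] at h6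
  rw [Nat.dvd_antisymm h5 h6, h] at h1
  have h7 := Nat.le_of_dvd (by norm_num) h2
  change _ % 7 = 1 at h3
  generalize (centralizer ((P : Subgroup G) : Set G)).relIndex _ = e at h1 h2 h7
  interval_cases e <;> omega

theorem Am.top [Finite G] [IsSimpleGroup G] (hG : Nat.card G = 6048) (h : Am S x y t c d)
    (hs : ∀ g : G, g ^ 7 = 1 ∨ g ^ 8 = 1 ∨ g ^ 12 = 1) :
    cl [x, x⁻¹, y, y⁻¹, t, c, c⁻¹, d, d⁻¹] = ⊤ := by
  have : Fact (Nat.Prime 7) := ⟨by norm_num⟩
  set H := cl [x, x⁻¹, y, y⁻¹, t, c, c⁻¹, d, d⁻¹]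
  have hx : x ∈ H := mem_cl (by simp)
  have hy : y ∈ H := mem_cl (by simp)
  have ht : t ∈ H := mem_cl (by simp)
  have hc : c ∈ H := mem_cl (by simp)
  have hd : d ∈ H := mem_cl (by simp)
  have h1 : 32 ∣ Nat.card H := by
    have : S ≤ H := fun g hg => by
      obtain ⟨i, j, rfl | rfl⟩ := (h.w.mem g).1 hg
      · exact mul_mem (zpow_mem hx _) (zpow_mem hy _)
      · exact mul_mem (mul_mem (zpow_mem hx _) (zpow_mem hy _)) ht
    have := card_dvd_of_le this
    rwa [h.w.card_S] at this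
  have h2 : 3 ∣ Nat.card H := by
    rw [← orderOf_eq_prime h.c3 fun e => h.c_ne (by simp [e])]
    exact H.orderOf_dvd_natCard hc
  have h3 : 7 ∣ Nat.card H := by
    have e := h.seven hs ugW7 (by rw [ug_R_eq]; exact List.mem_cons_self)
    have e' : (c * d) ^ 7 = 1 := by
      rw [← e]; simp only [ugW7, ev_cons, ev_nil, List.getD_cons_zero, List.getD_cons_succ,
        pow_succ, pow_zero, one_mul, mul_one, mul_assoc]
    rw [← orderOf_eq_prime e' fun e => h.c_ne ?_]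
    · exact H.orderOf_dvd_natCard (mul_mem hc hd)
    · rw [eq_inv_of_mul_eq_one_left e]
      exact (Commute.inv_left h.dz).eq
  by_contra hne
  have h4 := H2.sm_two_card_dvd (H2.sm_noncomm_of_card (by rw [hG]; norm_num)) H hne
  have h5 := H.card_mul_index
  have h6 : Nat.card H ≠ 672 := no672 fun g => by simpa [Subtype.ext_iff] using hs g
  obtain ⟨m, hm⟩ : 672 ∣ Nat.card H := by omega
  rw [hG] at h4 h5
  rw [hm] at h5 h6
  have h7 : H.index ∣ 9 := Dvd.intro_left m (by linarith)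
  have h8 := Nat.le_of_dvd (by norm_num) h7
  generalize H.index = n at *
  interval_cases n <;> simp_all [Nat.factorial]
  omega

theorem iso {Q : Type} [Group Q] [Finite Q] [IsSimpleGroup Q] (hQ : Nat.card Q = 6048)
    (sQ : ∀ g : Q, g ^ 7 = 1 ∨ g ^ 8 = 1 ∨ g ^ 12 = 1) {S' : Subgroup Q} {x' y' t' c' d' : Q}
    (h' : Am S' x' y' t' c' d') [Finite G] (hG : Nat.card G = 6048)
    (sG : ∀ g : G, g ^ 7 = 1 ∨ g ^ 8 = 1 ∨ g ^ 12 = 1) (h : Am S x y t c d) :
    Nonempty (G ≃* Q) := by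
  have h2 := h'.top hQ sQ
  obtain ⟨φ, hφ⟩ := (Univ.of_pres ug_pres rfl (h'.seven sQ) (by rw [h2, card_top, hQ])).hom
    (xs := [x, x⁻¹, y, y⁻¹, t, c, c⁻¹, d, d⁻¹]) rfl (h.seven sG)
  let ψ : Q →* G := φ.comp ((MulEquiv.subgroupCongr h2).trans Subgroup.topEquiv).symm.toMonoidHom
  have h3 : Function.Injective ψ := by
    rcases ψ.normal_ker.eq_bot_or_eq_top with k | k
    · exact (MonoidHom.ker_eq_bot_iff _).1 k
    · refine (h.c_ne ?_).elim
      have : ev [x, x⁻¹, y, y⁻¹, t, c, c⁻¹, d, d⁻¹] [5] = 1 := by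
        rw [← hφ]
        exact (k.ge (Subgroup.mem_top (ev _ [5])) : ψ _ = 1)
      have e : c = 1 := by simpa [ev_cons, ev_nil] using this
      simp [e]
  exact ⟨(MulEquiv.ofBijective ψ ((Nat.bijective_iff_injective_and_card ψ).2
    ⟨h3, hQ.trans hG.symm⟩)).symm⟩

end H4.UG
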